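import Cfsg.Agent.Lib.Chev.TwistD4
import Cfsg.Agent.Lib.Chev.Cent

/-!
Root combinatorics for the torus of `³D₄(q)` of order `(q³ - 1)(q + 1)`.
-/

set_option autoImplicit false

namespace Cfsg.Agent.Lib.Chev.D4Cyclic

open Cfsg.Lie Cfsg.Agent.Lib Cfsg.Agent.Lib.Chev

/-- the central simple root -/
theorem simple_tbl : chevD4.simple 0 = 18 ∧ chevD4.simple 1 = 14 ∧ chevD4.simple 2 = 13 ∧ chevD4.simple 3 = 12 ∧
    chevD4.nroots = 24 ∧ (∀ r < 24, chevD4.neg r = 23 - r) ∧ (∀ r < 24, (0 < D4.fast.key r) ↔ 12 ≤ r) := by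
  decide +kernel

/-- exponent vector of the character on the torus, in the basis `1, q, q²` -/
def u0 (s : ℕ) : ℤ := D4.fast.A 0 s + D4.fast.A 1 s + D4.fast.A 3 s
/-- second digit -/
def u1 (s : ℕ) : ℤ := D4.fast.A 0 s + D4.fast.A 1 s + D4.fast.A 2 s
/-- third digit -/
def u2 (s : ℕ) : ℤ := D4.fast.A 1 s + D4.fast.A 2 s + D4.fast.A 3 s

/-- roots with the signature of a simple root, or trivial signature -/
theorem sep_digits : (allBelow 24 fun s => allBelow 24 fun r =>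
    decide ((u0 r - u0 s).natAbs ≤ 7 ∧ (u1 r - u1 s).natAbs ≤ 7 ∧ (u2 r - u2 s).natAbs ≤ 7 ∧
      (u0 r).natAbs ≤ 7 ∧ (u1 r).natAbs ≤ 7 ∧ (u2 r).natAbs ≤ 7)) = true ∧
    (allBelow 24 fun s =>
      decide (u0 s = 0 → u1 s = 0 → u2 s = 0 → s = 14 ∨ s = 9) &&
      allBelow 4 fun j => decide (u0 s = u0 (D4.fast.sp j) → u1 s = u1 (D4.fast.sp j) → u2 s = u2 (D4.fast.sp j) →
        D4.fast.pr 14 s = D4.fast.pr 14 (D4.fast.sp j) → s = D4.fast.sp j)) = true := by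
  decide +kernel

/-- the exponent at `q` -/
def ev (q : ℤ) (s : ℕ) : ℤ := u0 s + q * u1 s + q ^ 2 * u2 s

theorem sep_small : (allBelow 6 fun k => allBelow 24 fun s =>
      decide (ev (k + 3) s % ((k + 3 : ℤ) ^ 3 - 1) = 0 → s = 14 ∨ s = 9) &&
      allBelow 4 fun j => decide ((ev (k + 3) s - ev (k + 3) (D4.fast.sp j)) % ((k + 3 : ℤ) ^ 3 - 1) = 0 →
        D4.fast.pr 14 s = D4.fast.pr 14 (D4.fast.sp j) → s = D4.fast.sp j)) = true := by
  decide +kernel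

theorem ev_refl : (allBelow 24 fun s => decide (u0 (D4.fast.w 1 s) = u0 s ∧ u1 (D4.fast.w 1 s) = u1 s ∧
    u2 (D4.fast.w 1 s) = u2 s)) = true ∧ u0 14 = 0 ∧ u1 14 = 0 ∧ u2 14 = 0 := by
  decide +kernel

end Cfsg.Agent.Lib.Chev.D4Cyclic
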