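import Cfsg.Agent.Lib.Chev.SLTwoHom
import Cfsg.Agent.Lib.Chev.TwistD4
import Cfsg.Agent.Lib.Chev.InvolMono
import Cfsg.Agent.Lib.Chev.Struct
import Cfsg.Agent.Lib.Chev.D4Cyclic.Tables

/-!
The subgroup `(K* × GL₂)`-part of the Levi subgroup of the central node of `³D₄`.
-/

set_option autoImplicit false

namespace Cfsg.Agent.Lib.Chev.D4Cyclic

open Cfsg.Lie Cfsg.Agent.Lib Cfsg.Agent.Lib.Chev
open scoped MatrixGroups

variable {K : Type*} [Field K]

/-- the checked datum -/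
def CD : Checked chevD4 D4.fast := D4.checked

theorem lt24 {r : ℕ} (hr : r < 24) : r < chevD4.nroots := simple_tbl.2.2.2.2.1 ▸ hr

theorem neg14 : chevD4.neg 14 = 9 := simple_tbl.2.2.2.2.2.1 14 (by norm_num)

/-- the character of a torus element -/
theorem chr_four (φ : K ≃+* K) (a u : Kˣ) (r : ℕ) :
    CD.chrOf (D4.torVec φ a u) r = (a : K) ^ chevD4.cartan 0 r * (u : K) ^ chevD4.cartan 1 r *
      φ (a : K) ^ chevD4.cartan 2 r * φ (φ (a : K)) ^ chevD4.cartan 3 r := by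
  rw [Checked.chrOf, Units.coe_prod]
  trans ∏ i : Fin 4, ([(a : K), u, φ a, φ (φ a)].getD i.1 1) ^ chevD4.cartan i.1 r
  · refine Fintype.prod_equiv (finCongr D4.rank_eq) _ _ fun i => ?_
    rw [Units.val_zpow_eq_zpow_val]
    congr 1
    obtain ⟨i, hi⟩ := i
    have hi' : i < 4 := D4.rank_eq ▸ hi
    interval_cases i <;> simp [D4.torVec, finCongr]
  · rw [Fin.prod_univ_four]; simp

/-- the norm -/
def Nm (φ : K ≃+* K) : Kˣ →* Kˣ where
  toFun a := a * Units.map φ.toMonoidHom a * Units.map φ.toMonoidHom (Units.map φ.toMonoidHom a)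
  map_one' := by simp
  map_mul' a b := by simp only [map_mul]; ac_rfl

theorem val_Nm (φ : K ≃+* K) (a : Kˣ) : (Nm φ a : K) = a * φ a * φ (φ a) := rfl

theorem Nm_fixed {φ : K ≃+* K} (hper : ∀ t : K, φ^[3] t = t) (a : Kˣ) : φ (Nm φ a : K) = Nm φ a := by
  have h : φ (φ (φ (a : K))) = a := hper a
  rw [val_Nm, map_mul, map_mul, h]; ring

theorem torVec_mul (φ : K ≃+* K) (a b a' b' : Kˣ) :
    D4.torVec φ a b * D4.torVec φ a' b' = D4.torVec φ (a * a') (b * b') := by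
  funext ⟨i, hi⟩
  have hi' : i < 4 := D4.rank_eq ▸ hi
  interval_cases i <;> simp [D4.torVec]

theorem torVec_one (φ : K ≃+* K) : D4.torVec φ (1 : Kˣ) 1 = 1 := by
  funext ⟨i, hi⟩
  have hi' : i < 4 := D4.rank_eq ▸ hi
  interval_cases i <;> simp [D4.torVec]

/-- the fixed torus, as a homomorphism in two variables -/
def tor (φ : K ≃+* K) : Kˣ × Kˣ →* GL chevD4.Idx K where
  toFun p := CD.torus (D4.torVec φ p.1 p.2)
  map_one' := by
    show CD.torus (D4.torVec φ (1 : Kˣ) 1) = 1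
    rw [torVec_one]; exact CD.torusHom.map_one
  map_mul' p p' := by
    show CD.torus (D4.torVec φ (p.1 * p'.1) (p.2 * p'.2)) = _
    rw [← torVec_mul]; exact CD.torusHom.map_mul _ _

/-- `τ(a)` -/
def tau (φ : K ≃+* K) : Kˣ →* GL chevD4.Idx K :=
  (tor φ).comp ((MonoidHom.id Kˣ).prod (Nm φ))

theorem tau_def (φ : K ≃+* K) (a : Kˣ) : tau φ a = CD.torus (D4.torVec φ a (Nm φ a)) := rfl

theorem tor_mem_diag (φ : K ≃+* K) (p : Kˣ × Kˣ) : tor φ p ∈ chevD4.diagonalSubgroup K :=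
  CD.range_torusHom (F := K) ▸ ⟨_, rfl⟩

theorem tau_mem_diag (φ : K ≃+* K) (a : Kˣ) : tau φ a ∈ chevD4.diagonalSubgroup K := tor_mem_diag φ _

theorem cart14 : chevD4.cartan 0 14 = -1 ∧ chevD4.cartan 1 14 = 2 ∧ chevD4.cartan 2 14 = -1 ∧
    chevD4.cartan 3 14 = -1 ∧ chevD4.cartan 0 9 = 1 ∧ chevD4.cartan 1 9 = -2 ∧ chevD4.cartan 2 9 = 1 ∧
    chevD4.cartan 3 9 = 1 := by decide +kernel

theorem tau_chr14 (φ : K ≃+* K) (a : Kˣ) : CD.chrOf (D4.torVec φ a (Nm φ a)) 14 = Nm φ a := by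
  rw [chr_four, cart14.1, cart14.2.1, cart14.2.2.1, cart14.2.2.2.1, val_Nm]
  simp only [zpow_neg, zpow_one, zpow_two]
  have h1 := a.ne_zero
  have h2 : φ (a : K) ≠ 0 := (map_ne_zero φ).2 h1
  have h3 : φ (φ (a : K)) ≠ 0 := (map_ne_zero φ).2 h2
  field_simp

theorem tau_chr9 (φ : K ≃+* K) (a : Kˣ) : CD.chrOf (D4.torVec φ a (Nm φ a)) 9 = ((Nm φ a : Kˣ) : K)⁻¹ := by
  rw [chr_four, cart14.2.2.2.2.1, cart14.2.2.2.2.2.1, cart14.2.2.2.2.2.2.1, cart14.2.2.2.2.2.2.2, val_Nm]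
  simp only [zpow_neg, zpow_one, zpow_two]
  have h1 := a.ne_zero
  have h2 : φ (a : K) ≠ 0 := (map_ne_zero φ).2 h1
  have h3 : φ (φ (a : K)) ≠ 0 := (map_ne_zero φ).2 h2
  field_simp

theorem exists_Phi : ∃ f : SL(2, K) →* GL chevD4.Idx K,
    ∀ t : K, f (RootPair.upT t) = CD.xg 14 t ∧ f (RootPair.loT t) = CD.xg 9 t := by
  obtain ⟨f, -, h⟩ := Checked.exists_slTwo_hom (F := K) CD (en_simple_of CD en_simple_D4) (lt24 (show 14 < 24 by norm_num))
  exact ⟨f, fun t => by rw [← neg14]; exact h t⟩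

/-- the homomorphism from `SL₂` on the central root pair -/
noncomputable def Phi : SL(2, K) →* GL chevD4.Idx K := exists_Phi.choose

theorem Phi_up (t : K) : Phi (RootPair.upT t) = CD.xg 14 t := (exists_Phi.choose_spec t).1
theorem Phi_lo (t : K) : Phi (RootPair.loT t) = CD.xg 9 t := (exists_Phi.choose_spec t).2

theorem closure_upT_loT : Subgroup.closure
    (Set.range (RootPair.upT (F := K)) ∪ Set.range (RootPair.loT (F := K))) = ⊤ := by
  rw [eq_top_iff, ← RootPair.closure_eq_top, Subgroup.closure_le]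
  rintro _ (⟨t, rfl⟩ | rfl)
  · exact Subgroup.subset_closure (Or.inl ⟨t, rfl⟩)
  · have e : (RootPair.wT : SL(2, K)) = RootPair.upT 1 * RootPair.loT (-1) * RootPair.upT 1 := by
      ext i j
      fin_cases i <;> fin_cases j <;>
        simp [RootPair.val_upT, RootPair.val_loT, RootPair.val_wT, Matrix.mul_apply, Fin.sum_univ_two]
    rw [e]
    exact mul_mem (mul_mem (Subgroup.subset_closure (Or.inl ⟨1, rfl⟩))
      (Subgroup.subset_closure (Or.inr ⟨-1, rfl⟩))) (Subgroup.subset_closure (Or.inl ⟨1, rfl⟩))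

/-- Homomorphisms out of `SL₂` agreeing on transvections are equal. -/
theorem hom_ext {G : Type*} [Group G] {f g : SL(2, K) →* G}
    (h1 : ∀ t, f (RootPair.upT t) = g (RootPair.upT t)) (h2 : ∀ t, f (RootPair.loT t) = g (RootPair.loT t)) :
    f = g :=
  MonoidHom.eq_of_eqOn_dense closure_upT_loT (by rintro _ (⟨t, rfl⟩ | ⟨t, rfl⟩); exacts [h1 t, h2 t])

theorem Phi_mem_group (B : SL(2, K)) : Phi B ∈ chevD4.group K := by
  have h : B ∈ (chevD4.group K).comap Phi := by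
    have : (⊤ : Subgroup SL(2, K)) ≤ (chevD4.group K).comap Phi := by
      rw [← closure_upT_loT (K := K), Subgroup.closure_le]
      rintro _ (⟨t, rfl⟩ | ⟨t, rfl⟩)
      · show Phi (RootPair.upT t) ∈ chevD4.group K; rw [Phi_up]; exact CD.xg_mem_group (lt24 (by norm_num)) t
      · show Phi (RootPair.loT t) ∈ chevD4.group K; rw [Phi_lo]; exact CD.xg_mem_group (lt24 (by norm_num)) t
    exact this (Subgroup.mem_top B)
  exact h

/-- conjugation by `diag(c, 1)`, as a map -/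
def cjF (c : Kˣ) (B : SL(2, K)) : SL(2, K) :=
  ⟨!![B.1 0 0, (c : K) * B.1 0 1; (c : K)⁻¹ * B.1 1 0, B.1 1 1], by
    have := c.ne_zero
    have hd := RootPair.det_eq B
    rw [Matrix.det_fin_two_of]
    field_simp
    linear_combination hd⟩

theorem val_cjF (c : Kˣ) (B : SL(2, K)) :
    (cjF c B).1 = !![B.1 0 0, (c : K) * B.1 0 1; (c : K)⁻¹ * B.1 1 0, B.1 1 1] := rfl

theorem cjF_mul (c : Kˣ) (A B : SL(2, K)) : cjF c (A * B) = cjF c A * cjF c B := by
  have := c.ne_zero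
  ext i j
  fin_cases i <;> fin_cases j <;>
    simp [val_cjF, Matrix.SpecialLinearGroup.coe_mul, Matrix.mul_apply, Fin.sum_univ_two] <;> field_simp

/-- conjugation by `diag(c, 1)` -/
def cjD (c : Kˣ) : SL(2, K) →* SL(2, K) := MonoidHom.mk' (cjF c) (cjF_mul c)

theorem cjD_apply (c : Kˣ) (B : SL(2, K)) : cjD c B = cjF c B := rfl

theorem tau_conj (φ : K ≃+* K) (a : Kˣ) (B : SL(2, K)) :
    tau φ a * Phi B * (tau φ a)⁻¹ = Phi (cjD (Nm φ a) B) := by
  have h : (MulAut.conj (tau φ a)).toMonoidHom.comp Phi = Phi.comp (cjD (Nm φ a)) := by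
    refine hom_ext (fun t => ?_) (fun t => ?_)
    · have e : cjD (Nm φ a) (RootPair.upT t) = RootPair.upT (((Nm φ a : Kˣ) : K) * t) := by
        ext i j; fin_cases i <;> fin_cases j <;> simp [cjD_apply, val_cjF, RootPair.val_upT]
      show tau φ a * Phi (RootPair.upT t) * (tau φ a)⁻¹ = Phi (cjD _ _)
      rw [e, Phi_up, Phi_up, tau_def, CD.torus_xg _ (lt24 (by norm_num)), tau_chr14]
    · have e : cjD (Nm φ a) (RootPair.loT t) = RootPair.loT (((Nm φ a : Kˣ) : K)⁻¹ * t) := by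
        ext i j; fin_cases i <;> fin_cases j <;> simp [cjD_apply, val_cjF, RootPair.val_loT]
      show tau φ a * Phi (RootPair.loT t) * (tau φ a)⁻¹ = Phi (cjD _ _)
      rw [e, Phi_lo, Phi_lo, tau_def, CD.torus_xg _ (lt24 (by norm_num)), tau_chr9]
  exact DFunLike.congr_fun h B

/-- diagonal matrices -/
def dS (x : Kˣ) : SL(2, K) := ⟨!![(x : K), 0; 0, (x : K)⁻¹], by simp [Matrix.det_fin_two_of]⟩

theorem i1lt : 1 < chevD4.rank := D4.rank_eq ▸ (by norm_num : 1 < 4)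

theorem Phi_dS (x : Kˣ) :
    Phi (dS x) = CD.torus (Pi.mulSingle (⟨1, i1lt⟩ : Fin chevD4.rank) x) := by
  have e : dS x = RootPair.upT (x : K) * RootPair.loT (-(x : K)⁻¹) * RootPair.upT (x : K) *
      (RootPair.upT (-1) * RootPair.loT 1 * RootPair.upT (-1)) := by
    have := x.ne_zero
    ext i j
    fin_cases i <;> fin_cases j <;>
      simp [dS, RootPair.val_upT, RootPair.val_loT, Matrix.mul_apply, Fin.sum_univ_two]
  rw [CD.torus_mulSingle]
  show Phi (dS x) = CD.hg (chevD4.simple 1) (x : K)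
  rw [simple_tbl.2.1, e, map_mul, map_mul, map_mul, map_mul, map_mul, Phi_up, Phi_lo, Phi_up, Phi_lo]
  simp only [Checked.hg, ChevalleyDatum.hWord, Checked.val_wg_append, ChevalleyDatum.nWord, Checked.wg_cons,
    Checked.wg_nil, mul_one, inv_neg, inv_one, neg_neg, neg14, ← mul_assoc]

theorem xg14_pos (t : K) : CD.xg 14 t ∈ chevD4.posUnipotent K :=
  CD.xg_mem_pos ((CD.root.pos_iff 14).2 ⟨lt24 (by norm_num), (simple_tbl.2.2.2.2.2.2 14 (by norm_num)).2 (by norm_num)⟩) t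

theorem xg9_neg (t : K) : CD.xg 9 t ∈ chevD4.negUnipotent K := by
  rw [negUnipotent_eq]
  refine CD.xg_mem ?_ t
  show chevD4.IsNegRoot 9
  rw [← neg14, CD.neg_neg_iff (lt24 (by norm_num))]
  exact (CD.root.pos_iff 14).2 ⟨lt24 (by norm_num), (simple_tbl.2.2.2.2.2.2 14 (by norm_num)).2 (by norm_num)⟩

theorem eq_ulu (B : SL(2, K)) (hc : B.1 1 0 ≠ 0) :
    B = RootPair.upT ((B.1 0 0 - 1) / B.1 1 0) * RootPair.loT (B.1 1 0) *
      RootPair.upT ((B.1 1 1 - 1) / B.1 1 0) := by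
  have hd := RootPair.det_eq B
  ext i j
  fin_cases i <;> fin_cases j <;>
    simp [RootPair.val_upT, RootPair.val_loT, Matrix.mul_apply, Fin.sum_univ_two] <;> field_simp <;>
      first | linear_combination hd | linear_combination -hd | ring1

theorem eq_lul (B : SL(2, K)) (hb : B.1 0 1 ≠ 0) :
    B = RootPair.loT ((B.1 1 1 - 1) / B.1 0 1) * RootPair.upT (B.1 0 1) *
      RootPair.loT ((B.1 0 0 - 1) / B.1 0 1) := by
  have hd := RootPair.det_eq B
  ext i j
  fin_cases i <;> fin_cases j <;>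
    simp [RootPair.val_upT, RootPair.val_loT, Matrix.mul_apply, Fin.sum_univ_two] <;> field_simp <;>
      first | linear_combination hd | linear_combination -hd | ring1

/-- An element of `SL₂` with diagonal image is diagonal. -/
theorem diag_of_Phi {B : SL(2, K)} (h : Phi B ∈ chevD4.diagonalSubgroup K) : ∃ x : Kˣ, B = dS x := by
  have hc : B.1 1 0 = 0 := by
    by_contra hc
    have e := congrArg Phi (eq_ulu B hc)
    rw [map_mul, map_mul, Phi_up, Phi_lo, Phi_up] at e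
    set d := Phi B
    set X := CD.xg 14 ((B.1 0 0 - 1) / B.1 1 0) with hX
    set X' := CD.xg 14 ((B.1 1 1 - 1) / B.1 1 0) with hX'
    have h2 : CD.xg 9 (B.1 1 0) ∈ chevD4.borelSubgroup K := by
      have e2 : CD.xg 9 (B.1 1 0) = X⁻¹ * d * X'⁻¹ := by rw [e]; group
      rw [e2]
      exact mul_mem (mul_mem (inv_mem (Subgroup.mem_sup_left (xg14_pos _))) (Subgroup.mem_sup_right h))
        (inv_mem (Subgroup.mem_sup_left (xg14_pos _)))
    have h3 := Subgroup.mem_inf.2 ⟨h2, xg9_neg (B.1 1 0)⟩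
    rw [CD.borel_inf_neg, Subgroup.mem_bot] at h3
    exact hc (CD.xg_eq_one (lt24 (by norm_num)) h3)
  have hb : B.1 0 1 = 0 := by
    by_contra hb
    have e := congrArg Phi (eq_lul B hb)
    rw [map_mul, map_mul, Phi_up, Phi_lo, Phi_lo] at e
    set d := Phi B
    set X := CD.xg 9 ((B.1 1 1 - 1) / B.1 0 1) with hX
    set X' := CD.xg 9 ((B.1 0 0 - 1) / B.1 0 1) with hX'
    have h2 : CD.xg 14 (B.1 0 1) ∈ chevD4.negUnipotent K ⊔ chevD4.diagonalSubgroup K := by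
      have e2 : CD.xg 14 (B.1 0 1) = X⁻¹ * d * X'⁻¹ := by rw [e]; group
      rw [e2]
      exact mul_mem (mul_mem (inv_mem (Subgroup.mem_sup_left (xg9_neg _))) (Subgroup.mem_sup_right h))
        (inv_mem (Subgroup.mem_sup_left (xg9_neg _)))
    have h3 : CD.xg 14 (B.1 0 1) ∈
        chevD4.borelSubgroup K ⊓ (chevD4.negUnipotent K ⊔ chevD4.diagonalSubgroup K) :=
      Subgroup.mem_inf.2 ⟨Subgroup.mem_sup_left (xg14_pos _), h2⟩
    rw [CD.borel_inf_opp] at h3
    have h4 := Subgroup.mem_inf.2 ⟨xg14_pos (B.1 0 1), h3⟩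
    rw [CD.pos_inf_diag, Subgroup.mem_bot] at h4
    exact hb (CD.xg_eq_one (lt24 (by norm_num)) h4)
  have hd := RootPair.det_eq B
  rw [hb, zero_mul, sub_zero] at hd
  refine ⟨Units.mk0 (B.1 0 0) (left_ne_zero_of_mul (ne_of_eq_of_ne hd one_ne_zero)), ?_⟩
  have h11 : B.1 1 1 = (B.1 0 0)⁻¹ := eq_inv_of_mul_eq_one_right hd
  ext i j
  fin_cases i <;> fin_cases j <;> simp [dS, hb, hc, h11]

/-! ### the twist -/

theorem rho_pair : D4.sym.r 14 = 14 ∧ D4.sym.r 9 = 9 ∧ D4.sym.e 14 = false ∧ D4.sym.e 9 = false := by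
  decide +kernel

theorem act_xg (φ : K ≃+* K) {r : ℕ} (hr : r < 24) (h1 : D4.sym.r r = r) (h2 : D4.sym.e r = false) (t : K) :
    (D4.tw φ).act (CD.xg r t) = CD.xg r (φ t) := by
  refine ((D4.tw φ).map_xg r (lt24 hr) t).trans ?_
  show CD.xg (D4.sym.r r) (((sgn (D4.sym.e r) : ℤ) : K) * φ t) = _
  rw [h1, h2]; simp [sgn]

/-- the entrywise automorphism -/
def mapS (φ : K ≃+* K) : SL(2, K) →* SL(2, K) := Matrix.SpecialLinearGroup.map φ.toRingHom

theorem val_mapS (φ : K ≃+* K) (B : SL(2, K)) (i j : Fin 2) : (mapS φ B).1 i j = φ (B.1 i j) := rfl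

theorem act_Phi (φ : K ≃+* K) (B : SL(2, K)) : (D4.tw φ).act (Phi B) = Phi (mapS φ B) := by
  let f : SL(2, K) →* GL chevD4.Idx K :=
    { toFun := fun B => (D4.tw φ).act (Phi B)
      map_one' := by rw [map_one]; exact (D4.tw φ).act_one
      map_mul' := fun A B => by rw [map_mul]; exact (D4.tw φ).act_mul (Phi_mem_group A) (Phi_mem_group B) }
  have h : f = Phi.comp (mapS φ) := by
    refine hom_ext (fun t => ?_) (fun t => ?_)
    · have e : mapS φ (RootPair.upT t) = RootPair.upT (φ t) := by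
        ext i j; fin_cases i <;> fin_cases j <;> simp [val_mapS, RootPair.val_upT]
      show (D4.tw φ).act (Phi _) = Phi (mapS φ _)
      rw [e, Phi_up, Phi_up, act_xg φ (by norm_num) rho_pair.1 rho_pair.2.2.1]
    · have e : mapS φ (RootPair.loT t) = RootPair.loT (φ t) := by
        ext i j; fin_cases i <;> fin_cases j <;> simp [val_mapS, RootPair.val_loT]
      show (D4.tw φ).act (Phi _) = Phi (mapS φ _)
      rw [e, Phi_lo, Phi_lo, act_xg φ (by norm_num) rho_pair.2.1 rho_pair.2.2.2]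
  exact DFunLike.congr_fun h B

theorem Phi_fixed (φ : K ≃+* K) {B : SL(2, K)} (h : ∀ i j, φ (B.1 i j) = B.1 i j) :
    Phi B ∈ (D4.tw φ).fixed := by
  refine ⟨Phi_mem_group B, ?_⟩
  rw [act_Phi, show mapS φ B = B by ext i j; rw [val_mapS]; exact h i j]

theorem tau_fixed {φ : K ≃+* K} (hper : ∀ t : K, φ^[3] t = t) (a : Kˣ) : tau φ a ∈ (D4.tw φ).fixed :=
  (D4.tw φ).torus_mem_fixed (D4.pinv_spec φ) ((D4.fixed_iff φ hper _).2 ⟨a, Nm φ a, Nm_fixed hper a, rfl⟩)

theorem tor_eq_one {φ : K ≃+* K} (hper : ∀ t : K, φ^[3] t = t) {a b : Kˣ} (hb : φ (b : K) = b)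
    (h : tor φ (a, b) = 1) : a = 1 ∧ b = 1 := by
  have h1 := CD.cartanMap_eq_one_of_torus (c := D4.torVec φ a b) h
  have e : ∀ j, j < 4 → CD.chrOf (D4.torVec φ a b) (chevD4.simple j) = 1 := by
    intro j hj
    have := congrArg Units.val (congrFun h1 ⟨j, D4.rank_eq ▸ hj⟩)
    rw [CD.cartanMap_apply] at this
    exact this
  have e0 := e 0 (by norm_num)
  have e1 := e 1 (by norm_num)
  have c0 : chevD4.cartan 0 18 = 2 ∧ chevD4.cartan 1 18 = -1 ∧ chevD4.cartan 2 18 = 0 ∧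
      chevD4.cartan 3 18 = 0 := by decide +kernel
  rw [simple_tbl.1, chr_four, c0.1, c0.2.1, c0.2.2.1, c0.2.2.2] at e0
  rw [simple_tbl.2.1, chr_four, cart14.1, cart14.2.1, cart14.2.2.1, cart14.2.2.2.1] at e1
  simp only [zpow_neg, zpow_one, zpow_zero, mul_one, zpow_two] at e0 e1
  have ha := a.ne_zero
  have hb0 := b.ne_zero
  have ha1 : φ (a : K) ≠ 0 := (map_ne_zero φ).2 ha
  have ha2 : φ (φ (a : K)) ≠ 0 := (map_ne_zero φ).2 ha1
  field_simp at e0 e1
  have e0' : (b : K) = a * a := by linear_combination -e0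
  have hsq : φ (a : K) * φ a = a * a := by rw [← map_mul, ← e0', hb]
  have hsq2 : φ (φ (a : K)) * φ (φ a) = a * a := by
    rw [← map_mul, ← map_mul, ← e0', hb, hb]
  have hN : (a : K) * φ a * φ (φ a) = (a : K) * a * (a * a) := by rw [← e0']; linear_combination -e1
  have ha2' : (a : K) * a = 1 := by
    have h6 := congrArg (fun x => x * x) hN
    have : ((a : K) * a) * ((a : K) * a) * ((a : K) * a) * ((a : K) * a - 1) = 0 := by
      linear_combination -h6 + ((a : K) * a * (φ (φ a) * φ (φ a))) * hsq + ((a : K) * a * (a * a)) * hsq2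
    rcases mul_eq_zero.1 this with h | h
    · simp [ha] at h
    · linear_combination h
  have hb1 : (b : K) = 1 := e0'.trans ha2'
  have ha' : (a : K) = 1 := by
    rcases mul_self_eq_one_iff.1 ha2' with h | h
    · exact h
    · rw [h, map_neg, map_one, map_neg, map_one] at hN
      linear_combination h + hN
  exact ⟨Units.ext ha', Units.ext hb1⟩

/-! ### the homomorphism -/

/-- the pairs `(a, A)` with `det A = N a` and rational `A` -/
def MM (φ : K ≃+* K) : Subgroup (Kˣ × GL (Fin 2) K) where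
  carrier := {p | (p.2 : Matrix (Fin 2) (Fin 2) K).det = Nm φ p.1 ∧
    ∀ i j, φ ((p.2 : Matrix (Fin 2) (Fin 2) K) i j) = (p.2 : Matrix (Fin 2) (Fin 2) K) i j}
  one_mem' := ⟨by simp, fun i j => by fin_cases i <;> fin_cases j <;> simp⟩
  mul_mem' := by
    rintro p p' ⟨h1, h2⟩ ⟨h1', h2'⟩
    refine ⟨?_, fun i j => ?_⟩
    · simp [Matrix.det_mul, h1, h1']
    · simp [Matrix.mul_apply, map_sum, h2, h2']
  inv_mem' := by
    rintro p ⟨h1, h2⟩
    refine ⟨?_, fun i j => ?_⟩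
    · rw [Prod.snd_inv, Matrix.coe_units_inv, Matrix.det_nonsing_inv, h1, Prod.fst_inv, map_inv,
        Units.val_inv_eq_inv_val]
      simp
    · have hd : φ (p.2 : Matrix (Fin 2) (Fin 2) K).det = (p.2 : Matrix (Fin 2) (Fin 2) K).det := by
        rw [Matrix.det_fin_two]; simp [h2]
      rw [Prod.snd_inv, Matrix.coe_units_inv, Matrix.inv_def, Matrix.adjugate_fin_two]
      fin_cases i <;> fin_cases j <;> simp [h2, hd]

/-- `diag(N a, 1)⁻¹ A` -/
def Spart (φ : K ≃+* K) (p : MM φ) : SL(2, K) :=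
  ⟨!![((Nm φ p.1.1 : Kˣ) : K)⁻¹ * (p.1.2 : Matrix (Fin 2) (Fin 2) K) 0 0,
      ((Nm φ p.1.1 : Kˣ) : K)⁻¹ * (p.1.2 : Matrix (Fin 2) (Fin 2) K) 0 1;
      (p.1.2 : Matrix (Fin 2) (Fin 2) K) 1 0, (p.1.2 : Matrix (Fin 2) (Fin 2) K) 1 1], by
    have h := p.2.1
    rw [Matrix.det_fin_two] at h
    rw [Matrix.det_fin_two_of]
    have := (Nm φ p.1.1).ne_zero
    field_simp
    linear_combination h⟩

theorem val_Spart (φ : K ≃+* K) (p : MM φ) : (Spart φ p).1 =
    !![((Nm φ p.1.1 : Kˣ) : K)⁻¹ * (p.1.2 : Matrix (Fin 2) (Fin 2) K) 0 0,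
      ((Nm φ p.1.1 : Kˣ) : K)⁻¹ * (p.1.2 : Matrix (Fin 2) (Fin 2) K) 0 1;
      (p.1.2 : Matrix (Fin 2) (Fin 2) K) 1 0, (p.1.2 : Matrix (Fin 2) (Fin 2) K) 1 1] := rfl

theorem Spart_mul (φ : K ≃+* K) (p p' : MM φ) :
    Spart φ (p * p') = cjD (Nm φ p'.1.1)⁻¹ (Spart φ p) * Spart φ p' := by
  have h1 := (Nm φ p.1.1).ne_zero
  have h2 := (Nm φ p'.1.1).ne_zero
  ext i j
  fin_cases i <;> fin_cases j <;>
    simp [val_Spart, cjD_apply, val_cjF, Matrix.SpecialLinearGroup.coe_mul, Matrix.mul_apply, Fin.sum_univ_two] <;> field_simp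

/-- the homomorphism `(a, A) ↦ τ(a) Φ(diag(N a, 1)⁻¹ A)` -/
noncomputable def Psi (φ : K ≃+* K) : MM φ →* GL chevD4.Idx K :=
  MonoidHom.mk' (fun p => tau φ p.1.1 * Phi (Spart φ p)) fun p p' => by
    rw [Spart_mul, map_mul Phi, ← map_inv (Nm φ), ← tau_conj, map_inv]
    show tau φ (p.1.1 * p'.1.1) * _ = _
    rw [map_mul]
    group

theorem Psi_apply (φ : K ≃+* K) (p : MM φ) : Psi φ p = tau φ p.1.1 * Phi (Spart φ p) := rfl

theorem Psi_fixed {φ : K ≃+* K} (hper : ∀ t : K, φ^[3] t = t) (p : MM φ) : Psi φ p ∈ (D4.tw φ).fixed :=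
  mul_mem (tau_fixed hper _) (Phi_fixed φ fun i j => by
    have hN := Nm_fixed hper p.1.1
    fin_cases i <;> fin_cases j <;> simp [Spart, p.2.2, hN])

theorem Psi_injective {φ : K ≃+* K} (hper : ∀ t : K, φ^[3] t = t) : Function.Injective (Psi φ) := by
  rw [injective_iff_map_eq_one]
  intro p hp
  rw [Psi_apply] at hp
  obtain ⟨x, hx⟩ := diag_of_Phi (B := Spart φ p)
    (by rw [eq_inv_of_mul_eq_one_right hp]; exact inv_mem (tau_mem_diag φ _))
  have hfx : φ (x : K) = x := by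
    have : (Spart φ p).1 0 0 = x := by rw [hx]; simp [dS]
    rw [← this]
    have hN := Nm_fixed hper p.1.1
    simp [Spart, p.2.2, hN]
  rw [hx, Phi_dS, tau_def] at hp
  have e : D4.torVec φ p.1.1 (Nm φ p.1.1) * Pi.mulSingle (⟨1, i1lt⟩ : Fin chevD4.rank) x =
      D4.torVec φ p.1.1 (Nm φ p.1.1 * x) := by
    funext ⟨i, hi⟩
    have hi' : i < 4 := D4.rank_eq ▸ hi
    interval_cases i <;> simp [D4.torVec, Pi.mulSingle_apply, Fin.ext_iff]
  have h1 : tor φ (p.1.1, Nm φ p.1.1 * x) = 1 := by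
    show CD.torus _ = 1
    rw [← e]
    exact (CD.torusHom.map_mul _ _).trans hp
  obtain ⟨ha, hb⟩ := tor_eq_one hper (by rw [Units.val_mul, map_mul, Nm_fixed hper, hfx]) h1
  rw [ha, map_one, one_mul] at hb
  refine Subtype.ext (Prod.ext ha (Units.ext ?_))
  have hS := congrArg Subtype.val hx
  simp only [Spart, dS, ha, map_one, hb, Units.val_one, inv_one, one_mul] at hS
  rw [Subgroup.coe_one, Prod.snd_one, Units.val_one, Matrix.one_fin_two, ← hS, ← Matrix.eta_fin_two]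

end Cfsg.Agent.Lib.Chev.D4Cyclic
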