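import Cfsg.Agent.Lib.Chev.D4Cyclic.Cent
import Cfsg.Agent.Lib.Chev.D4Cyclic.Levi

/-!
The centraliser in `³D₄(q)`, `q ≥ 3`, of the element `tor (a₀^(q+1), N a₀)`.
-/

set_option autoImplicit false

namespace Cfsg.Agent.Lib.Chev.D4Cyclic

open Cfsg.Lie Cfsg.Agent.Lib Cfsg.Agent.Lib.Chev
open scoped MatrixGroups

variable {K : Type*} [Field K]

/-- the exponents separate what has to be separated -/
theorem sep {q : ℕ} (hq : 3 ≤ q) {s : ℕ} (hs : s < 24) :
    (ev q s % ((q : ℤ) ^ 3 - 1) = 0 → s = 14 ∨ s = 9) ∧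
      ∀ j < 4, (ev q s - ev q (D4.fast.sp j)) % ((q : ℤ) ^ 3 - 1) = 0 →
        D4.fast.pr 14 s = D4.fast.pr 14 (D4.fast.sp j) → s = D4.fast.sp j := by
  rcases Nat.lt_or_ge q 9 with h9 | h9
  · obtain ⟨k, hk, rfl⟩ : ∃ k < 6, q = k + 3 := ⟨q - 3, by omega, by omega⟩
    have h := allBelow_iff.1 (allBelow_iff.1 sep_small k hk) s hs
    simp only [Bool.and_eq_true, decide_eq_true_eq, allBelow_iff] at h
    push_cast
    exact ⟨h.1, fun j hj => h.2 j hj⟩
  · have h1 : ∀ s < 24, ∀ r < 24, (u0 r - u0 s).natAbs ≤ 7 ∧ (u1 r - u1 s).natAbs ≤ 7 ∧ (u2 r - u2 s).natAbs ≤ 7 ∧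
        (u0 r).natAbs ≤ 7 ∧ (u1 r).natAbs ≤ 7 ∧ (u2 r).natAbs ≤ 7 := fun s hs r hr =>
      of_decide_eq_true (allBelow_iff.1 (allBelow_iff.1 sep_digits.1 s hs) r hr)
    have h2 := allBelow_iff.1 sep_digits.2 s hs
    simp only [Bool.and_eq_true, decide_eq_true_eq, allBelow_iff] at h2
    have key : ∀ d0 d1 d2 : ℤ, d0.natAbs ≤ 7 → d1.natAbs ≤ 7 → d2.natAbs ≤ 7 →
        (d0 + q * d1 + (q : ℤ) ^ 2 * d2) % ((q : ℤ) ^ 3 - 1) = 0 → d0 = 0 ∧ d1 = 0 ∧ d2 = 0 := by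
      intro d0 d1 d2 b0 b1 b2 h
      have hq9 : (9 : ℤ) ≤ q := by exact_mod_cast h9
      have hb : ∀ d : ℤ, d.natAbs ≤ 7 → -7 ≤ d ∧ d ≤ 7 := fun d hd => by omega
      obtain ⟨a0, c0⟩ := hb d0 b0
      obtain ⟨a1, c1⟩ := hb d1 b1
      obtain ⟨a2, c2⟩ := hb d2 b2
      have hq2 : (0 : ℤ) ≤ (q : ℤ) ^ 2 := by positivity
      have hz : d0 + q * d1 + (q : ℤ) ^ 2 * d2 = 0 := by
        refine Int.eq_zero_of_abs_lt_dvd (Int.dvd_of_emod_eq_zero h) ?_
        rw [abs_lt]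
        constructor <;> nlinarith
      have e0 : d0 = 0 := by
        have hd : (q : ℤ) ∣ d0 := ⟨-(d1 + q * d2), by linear_combination hz⟩
        exact Int.eq_zero_of_abs_lt_dvd hd (by rw [abs_lt]; omega)
      have e1 : d1 = 0 := by
        have hz' : (q : ℤ) * (d1 + q * d2) = 0 := by rw [e0] at hz; linear_combination hz
        have hd : (q : ℤ) ∣ d1 := ⟨-d2, by
          rcases mul_eq_zero.1 hz' with h | h
          · omega
          · linear_combination h⟩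
        exact Int.eq_zero_of_abs_lt_dvd hd (by rw [abs_lt]; omega)
      refine ⟨e0, e1, ?_⟩
      rw [e0, e1] at hz
      rcases mul_eq_zero.1 (show (q : ℤ) ^ 2 * d2 = 0 by linear_combination hz) with h | h
      · have : (0 : ℤ) < (q : ℤ) ^ 2 := by positivity
        omega
      · exact h
    refine ⟨fun h => ?_, fun j hj h hp => ?_⟩
    · obtain ⟨-, -, -, b0, b1, b2⟩ := h1 s hs s hs
      obtain ⟨e0, e1, e2⟩ := key _ _ _ b0 b1 b2 h
      exact h2.1 e0 e1 e2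
    · have hsp : D4.fast.sp j < 24 := by interval_cases j <;> decide +kernel
      obtain ⟨b0, b1, b2, -, -, -⟩ := h1 _ hsp s hs
      obtain ⟨e0, e1, e2⟩ := key _ _ _ b0 b1 b2 (by rw [← h]; unfold ev; ring_nf)
      exact h2.2 j hj (by omega) (by omega) (by omega) hp

/-- the character of `tor (a₀^(q+1), N a₀)` -/
theorem chr_z [Fintype K] {φ : K ≃+* K} {q : ℕ} (hφ : ∀ t, φ t = t ^ q) (hK : Fintype.card K = q ^ 3)
    (a₀ : Kˣ) {r : ℕ} (hr : r < 24) :
    CD.chrOf (D4.torVec φ (a₀ ^ (q + 1)) (Nm φ a₀)) r = ((a₀ ^ ev q r : Kˣ) : K) := by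
  have hA : ∀ i < 4, chevD4.cartan i r = D4.fast.A i r := fun i hi =>
    CD.tables.cartan i (D4.rank_eq ▸ hi) r (lt24 hr)
  rw [chr_four, hA 0 (by norm_num), hA 1 (by norm_num), hA 2 (by norm_num), hA 3 (by norm_num), val_Nm]
  simp only [hφ, Units.val_zpow_eq_zpow_val, Units.val_pow_eq_pow_val]
  have h0 := a₀.ne_zero
  have hper : (a₀ : K) ^ ((q : ℤ) ^ 3 - 1) = 1 := by
    have h := FiniteField.pow_card (a₀ : K)
    rw [hK] at h
    rw [zpow_sub₀ h0, zpow_one, ← Nat.cast_pow, zpow_natCast, h, div_self h0]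
  simp only [← zpow_natCast, ← zpow_mul, mul_zpow, ← zpow_add₀ h0]
  rw [← mul_one ((a₀ : K) ^ ev q r), ← one_zpow (D4.fast.A 3 r), ← hper, ← zpow_mul, ← zpow_add₀ h0]
  congr 1
  unfold ev u0 u1 u2
  push_cast
  ring

theorem Phi_mem_range (φ : K ≃+* K) {B : SL(2, K)} (h : ∀ i j, φ (B.1 i j) = B.1 i j) :
    Phi B ∈ (Psi φ).range := by
  let p : MM φ := ⟨(1, (B : GL (Fin 2) K)), ⟨by rw [map_one, Units.val_one]; exact B.2, fun i j => h i j⟩⟩
  refine ⟨p, ?_⟩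
  rw [Psi_apply, show p.1.1 = 1 from rfl, map_one, one_mul]
  congr 1
  ext i j
  fin_cases i <;> fin_cases j <;> simp [val_Spart, p]

theorem tau_mem_range {φ : K ≃+* K} (hper : ∀ t : K, φ^[3] t = t) (a : Kˣ) :
    tau φ a ∈ (Psi φ).range := by
  have hd : (!![((Nm φ a : Kˣ) : K), 0; 0, 1] : Matrix (Fin 2) (Fin 2) K).det ≠ 0 := by
    rw [Matrix.det_fin_two_of]; simp
  let p : MM φ := ⟨(a, Matrix.GeneralLinearGroup.mkOfDetNeZero _ hd), ⟨by
      show (!![((Nm φ a : Kˣ) : K), 0; 0, 1] : Matrix (Fin 2) (Fin 2) K).det = _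
      rw [Matrix.det_fin_two_of]; simp, fun i j => by
      show φ ((!![((Nm φ a : Kˣ) : K), 0; 0, 1] : Matrix (Fin 2) (Fin 2) K) i j) =
        (!![((Nm φ a : Kˣ) : K), 0; 0, 1] : Matrix (Fin 2) (Fin 2) K) i j
      fin_cases i <;> fin_cases j <;> simp [Nm_fixed hper]⟩⟩
  refine ⟨p, ?_⟩
  rw [Psi_apply, show p.1.1 = a from rfl]
  convert mul_one (tau φ a)
  rw [← map_one (Phi (K := K))]
  congr 1
  ext i j
  fin_cases i <;> fin_cases j <;> simp [val_Spart, p, Matrix.GeneralLinearGroup.mkOfDetNeZero]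

theorem xg14_mem_range (φ : K ≃+* K) {t : K} (h : φ t = t) : CD.xg 14 t ∈ (Psi φ).range := by
  rw [← Phi_up]
  refine Phi_mem_range φ fun i j => ?_
  rw [RootPair.val_upT]
  fin_cases i <;> fin_cases j <;> simp [h]

theorem xg9_mem_range (φ : K ≃+* K) {t : K} (h : φ t = t) : CD.xg 9 t ∈ (Psi φ).range := by
  rw [← Phi_lo]
  refine Phi_mem_range φ fun i j => ?_
  rw [RootPair.val_loT]
  fin_cases i <;> fin_cases j <;> simp [h]

/-- A fixed diagonal element lies in the image. -/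
theorem diag_mem_range [Fintype K] {φ : K ≃+* K} (hper : ∀ t : K, φ^[3] t = t) {d : GL chevD4.Idx K}
    (hd : d ∈ chevD4.diagonalSubgroup K) (hf : (D4.tw φ).act d = d) : d ∈ (Psi φ).range := by
  obtain ⟨c, hc, rfl⟩ := (D4.tw φ).exists_fixed_torus (D4.pinv_spec φ) (D4.torMap_per φ hper) D4.ker_exp
    (by norm_num) hd ⟨CD.diag_le_group hd, hf⟩
  obtain ⟨a, b, hb, rfl⟩ := (D4.fixed_iff φ hper c).1 hc
  have e : D4.torVec φ a b = D4.torVec φ a (Nm φ a) * Pi.mulSingle (⟨1, i1lt⟩ : Fin chevD4.rank) ((Nm φ a)⁻¹ * b) := by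
    funext ⟨i, hi⟩
    have hi' : i < 4 := D4.rank_eq ▸ hi
    interval_cases i <;> simp [D4.torVec, Pi.mulSingle_apply, Fin.ext_iff]
  have e2 : CD.torus (D4.torVec φ a b) = tau φ a * Phi (dS ((Nm φ a)⁻¹ * b)) := by
    rw [Phi_dS, tau_def, e]; exact CD.torusHom.map_mul _ _
  show CD.torus (D4.torVec φ a b) ∈ (Psi φ).range
  rw [e2]
  refine mul_mem (tau_mem_range hper a) (Phi_mem_range φ fun i j => ?_)
  fin_cases i <;> fin_cases j <;> simp [dS, hb, Nm_fixed hper]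

theorem tor_mem_fixed {φ : K ≃+* K} (hper : ∀ t : K, φ^[3] t = t) (a : Kˣ) {b : Kˣ} (hb : φ (b : K) = b) :
    tor φ (a, b) ∈ (D4.tw φ).fixed :=
  (D4.tw φ).torus_mem_fixed (D4.pinv_spec φ) ((D4.fixed_iff φ hper _).2 ⟨a, b, hb, rfl⟩)

theorem pos_root {r : ℕ} : chevD4.IsPosRoot r ↔ 12 ≤ r ∧ r < 24 := by
  rw [CD.root.pos_iff, simple_tbl.2.2.2.2.1]
  constructor
  · rintro ⟨h1, h2⟩
    exact ⟨(simple_tbl.2.2.2.2.2.2 r h1).1 h2, h1⟩
  · rintro ⟨h1, h2⟩
    exact ⟨h2, (simple_tbl.2.2.2.2.2.2 r h2).2 h1⟩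

theorem rootList_pos : CD.rootList {r | chevD4.IsPosRoot r} = (List.range 24).filter fun r => decide (12 ≤ r) := by
  classical
  unfold Checked.rootList
  rw [simple_tbl.2.2.2.2.1]
  refine List.filter_congr fun r hr => ?_
  have hr' := List.mem_range.1 hr
  rw [decide_eq_decide]
  show chevD4.IsPosRoot r ↔ _
  rw [pos_root]
  exact and_iff_left hr'

theorem refl_tbl : ∀ r < 24, chevD4.reflectRoot 1 r = D4.fast.w 1 r := by decide +kernel

/-- The centraliser of the regular-up-to-`±p` element. -/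
theorem cent_big [Fintype K] {φ : K ≃+* K} {q : ℕ} (hq : 3 ≤ q) (hφ : ∀ t, φ t = t ^ q)
    (hK : Fintype.card K = q ^ 3) {a₀ : Kˣ} (ha₀ : ∀ x, x ∈ Subgroup.zpowers a₀) {g : GL chevD4.Idx K}
    (hg : g ∈ (D4.tw φ).fixed)
    (hc : tor φ (a₀ ^ (q + 1), Nm φ a₀) * g = g * tor φ (a₀ ^ (q + 1), Nm φ a₀)) :
    g ∈ (Psi φ).range := by
  have hper : ∀ t : K, φ^[3] t = t := frob_per hφ hK
  obtain ⟨χ, hχ, heq⟩ := CD.isChr_chrOf (D4.torVec φ (a₀ ^ (q + 1)) (Nm φ a₀))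
  have eh : ((tor φ (a₀ ^ (q + 1), Nm φ a₀) : GL chevD4.Idx K) : Matrix chevD4.Idx chevD4.Idx K) =
      dg chevD4 χ := (CD.val_torus _).trans (dg_congr fun r hr => heq r hr)
  obtain ⟨t, s, hts, d, hd, n, hn, hsn, hperm, rfl⟩ :=
    cent_decomp CD hg.1 (tor_mem_diag φ _) hχ eh hc
  have hord : orderOf a₀ = q ^ 3 - 1 := by
    rw [orderOf_eq_card_of_forall_mem_zpowers ha₀, Nat.card_units, Nat.card_eq_fintype_card, hK]
  have hq3 : 1 ≤ q ^ 3 := Nat.one_le_pow _ _ (by omega)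
  have hmod : ∀ {m m' : ℤ}, a₀ ^ m = a₀ ^ m' → (m - m') % ((q : ℤ) ^ 3 - 1) = 0 := by
    intro m m' h
    have h1 := zpow_eq_zpow_iff_modEq.1 h
    rw [hord, Nat.cast_sub hq3, Nat.cast_pow, Nat.cast_one] at h1
    exact Int.emod_eq_zero_of_dvd h1.symm.dvd
  have hχe : ∀ r < 24, χ r = ((a₀ ^ ev q r : Kˣ) : K) := fun r hr => by
    rw [← chr_z hφ hK a₀ hr]; exact (heq r (lt24 hr)).symm
  have hz0 : ∀ r, chevD4.IsPosRoot r → r ≠ 14 → t r = 0 ∧ s r = 0 := by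
    intro r hr hne
    refine hts r hr fun h1 => ?_
    obtain ⟨h12, h24⟩ := pos_root.1 hr
    rw [hχe r h24, Units.val_eq_one, ← zpow_zero a₀] at h1
    have h2 := hmod h1
    rw [sub_zero] at h2
    rcases (sep hq h24).1 h2 with h | h <;> omega
  have hwg : ∀ f : ℕ → K, (∀ r, chevD4.IsPosRoot r → r ≠ 14 → f r = 0) →
      CD.wg ((CD.rootList {r | chevD4.IsPosRoot r}).map fun r => (r, f r)) = CD.xg 14 (f 14) := by
    intro f hf
    rw [CD.wg_filter (fun r => decide (r = 14)) f (CD.rootList {r | chevD4.IsPosRoot r}) fun r hr h =>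
      hf r (CD.mem_rootList.1 hr).2 (of_decide_eq_false h), rootList_pos, List.filter_filter,
      show (List.range 24).filter (fun r => decide (r = 14) && decide (12 ≤ r)) = [14] by decide +kernel]
    simp [Checked.wg_cons, Checked.wg_nil]
  rw [hwg t fun r hr hne => (hz0 r hr hne).1, hwg s fun r hr hne => (hz0 r hr hne).2] at hg ⊢
  have h14 : chevD4.IsPosRoot 14 := pos_root.2 ⟨by norm_num, by norm_num⟩
  have hn14 : (14 : ℕ) < chevD4.nroots := lt24 (by norm_num)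
  -- a monomial element fixing the root 14 and preserving the character is diagonal
  have hdiag : ∀ m ∈ chevD4.monomialSubgroup K, CD.sg m 14 = 14 →
      (∀ r < chevD4.nroots, χ (CD.sg m r) = χ r) → m ∈ chevD4.diagonalSubgroup K := by
    intro m hm h hp
    refine CD.mem_diag_of_simple_pos hm fun i hi => ?_
    have hi4 : i < 4 := D4.rank_eq ▸ hi
    have hsl := CD.root.simple_lt i hi
    have hσ : CD.sg m (chevD4.simple i) < 24 := simple_tbl.2.2.2.2.1 ▸ CD.sg_lt hm hsl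
    have hsp : D4.fast.sp i = chevD4.simple i := (CD.tables.simple i hi).symm
    have hsl24 : chevD4.simple i < 24 := simple_tbl.2.2.2.2.1 ▸ hsl
    have he := hp _ hsl
    rw [hχe _ hσ, hχe _ hsl24] at he
    have hfix := (sep hq hσ).2 i hi4 (by rw [hsp]; exact hmod (Units.ext he)) (by
      rw [hsp, CD.pr_eq hn14 (CD.sg_lt hm hsl), CD.pr_eq hn14 hsl]
      have := CD.pair_sg hm hn14 hsl
      rwa [h] at this)
    rw [hfix, hsp]
    exact CD.root.pos_simple hi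
  have hng : CD.ng (F := K) 1 ∈ (D4.tw φ).fixed ∧ CD.ng (F := K) 1 ∈ (Psi φ).range := by
    have e : CD.ng (F := K) 1 = Phi (RootPair.upT 1 * RootPair.loT (-1) * RootPair.upT 1) := by
      rw [map_mul, map_mul, Phi_up, Phi_lo, Checked.ng, simple_tbl.2.1]
      simp [ChevalleyDatum.nWord, Checked.wg_cons, Checked.wg_nil, neg14, mul_assoc]
    have hr : ∀ i j, φ ((RootPair.upT (1 : K) * RootPair.loT (-1) * RootPair.upT 1).1 i j) =
        (RootPair.upT (1 : K) * RootPair.loT (-1) * RootPair.upT 1).1 i j := fun i j => by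
      fin_cases i <;> fin_cases j <;>
        simp [RootPair.val_upT, RootPair.val_loT, Matrix.mul_apply, Fin.sum_univ_two]
    rw [e]
    exact ⟨Phi_fixed φ hr, Phi_mem_range φ hr⟩
  have hact : ∀ x : K, (D4.tw φ).act (CD.xg 14 x) = CD.xg 14 (φ x) :=
    fun x => act_xg φ (by norm_num) rho_pair.1 rho_pair.2.2.1 x
  -- uniqueness of the decomposition makes the parameters fixed
  have hparts : ∀ (x y : K) (d' m : GL chevD4.Idx K), d' ∈ chevD4.diagonalSubgroup K →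
      m ∈ chevD4.monomialSubgroup K → m ∈ (D4.tw φ).fixed → (14 ∈ CD.inv m ∨ y = 0) →
      CD.xg 14 x * d' * m * CD.xg 14 y ∈ (D4.tw φ).fixed →
      φ x = x ∧ φ y = y ∧ (D4.tw φ).act d' = d' := by
    intro x y d' m hd' hm hmf hy hf
    have hmg := CD.monomial_le_group hm
    have hdg := CD.diag_le_group hd'
    have hxg := CD.xg_mem_group (F := K) hn14
    have hf2 := hf.2
    rw [(D4.tw φ).act_mul (mul_mem (mul_mem (hxg x) hdg) hmg) (hxg y),
      (D4.tw φ).act_mul (mul_mem (hxg x) hdg) hmg, (D4.tw φ).act_mul (hxg x) hdg, hmf.2, hact, hact] at hf2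
    have hmemu : ∀ y' : K, (y = 0 → y' = 0) → CD.xg 14 y' ∈ grp chevD4 K (CD.inv m) := by
      intro y' h0
      rcases hy with h | h
      · exact CD.xg_mem h _
      · rw [h0 h, CD.xg_zero]; exact one_mem _
    have hb : ∀ (x' : K) (d'' : GL chevD4.Idx K), d'' ∈ chevD4.diagonalSubgroup K →
        CD.xg 14 x' * d'' ∈ chevD4.borelSubgroup K := fun x' d'' h =>
      mul_mem (Subgroup.mem_sup_left (CD.xg_mem_pos h14 x')) (Subgroup.mem_sup_right h)
    obtain ⟨e1, e2⟩ := (CD.bnu_unique (hb _ _ ((D4.tw φ).act_diag hd')) (hb x d' hd') hm hm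
      (hmemu (φ y) fun h => by rw [h, map_zero]) (hmemu y id) hf2).2 rfl
    have e3 : (CD.xg 14 x)⁻¹ * CD.xg 14 (φ x) = d' * ((D4.tw φ).act d')⁻¹ := by
      rw [eq_mul_inv_iff_mul_eq, mul_assoc, e1, inv_mul_cancel_left]
    have e4 : (CD.xg 14 x)⁻¹ * CD.xg 14 (φ x) = 1 := CD.eq_one_of_uni_mono
      (mul_mem (inv_mem (CD.xg_mem_pos h14 x)) (CD.xg_mem_pos h14 _))
      (e3 ▸ CD.diag_le_monomial (mul_mem hd' (inv_mem ((D4.tw φ).act_diag hd'))))
    refine ⟨CD.xg_inj hn14 (inv_mul_eq_one.1 e4).symm, CD.xg_inj hn14 e2, ?_⟩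
    rw [e3, mul_inv_eq_one] at e4
    exact e4.symm
  by_cases hσ : CD.sg n 14 = 14
  · have hnd := hdiag n hn hσ hperm
    have hs14 : s 14 = 0 := hsn 14 fun h => CD.not_pos_and_neg h14 (by rw [← hσ]; exact h.2)
    rw [hs14, CD.xg_zero, mul_one, mul_assoc (CD.xg 14 (t 14))] at hg ⊢
    obtain ⟨h1, -, h3⟩ := hparts (t 14) 0 (d * n) 1 (mul_mem hd hnd) (one_mem _) (one_mem _) (Or.inr rfl)
      (by rw [mul_one, CD.xg_zero, mul_one]; exact hg)
    exact mul_mem (xg14_mem_range φ h1) (diag_mem_range hper (mul_mem hd hnd) h3)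
  · have hσ9 : CD.sg n 14 = 9 := by
      have hlt : CD.sg n 14 < 24 := simple_tbl.2.2.2.2.1 ▸ CD.sg_lt hn hn14
      have e := hperm 14 hn14
      rw [hχe _ hlt, hχe 14 (by norm_num),
        show ev q 14 = 0 by unfold ev; rw [ev_refl.2.1, ev_refl.2.2.1, ev_refl.2.2.2]; ring] at e
      have h2 := hmod (Units.ext e)
      rw [sub_zero] at h2
      exact ((sep hq hlt).1 h2).resolve_left hσ
    have hi1 : 1 < chevD4.rank := i1lt
    set m := n * CD.ng (F := K) 1 with hm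
    have hmm : m ∈ chevD4.monomialSubgroup K := mul_mem hn (CD.ng_mem hi1)
    have hsgm : ∀ r < chevD4.nroots, CD.sg m r = CD.sg n (chevD4.reflectRoot 1 r) := fun r hr => by
      rw [hm, CD.sg_mul hn (CD.ng_mem hi1) hr, CD.sg_ng hi1 hr]
    have hm14 : CD.sg m 14 = 14 := by
      rw [hsgm 14 hn14, show chevD4.reflectRoot 1 14 = chevD4.neg 14 by
        rw [← simple_tbl.2.1]; exact CD.root.refl_simple hi1, CD.sg_neg hn hn14, hσ9,
        simple_tbl.2.2.2.2.2.1 9 (by norm_num)]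
    have hmd := hdiag m hmm hm14 fun r hr => by
      have hr' := CD.root.refl_lt 1 hi1 r hr
      rw [hsgm r hr, hperm _ hr']
      have hr24 : r < 24 := simple_tbl.2.2.2.2.1 ▸ hr
      have hr24' : chevD4.reflectRoot 1 r < 24 := simple_tbl.2.2.2.2.1 ▸ hr'
      obtain ⟨e0, e1, e2⟩ := of_decide_eq_true (allBelow_iff.1 ev_refl.1 r hr24)
      rw [hχe _ hr24', hχe _ hr24, refl_tbl r hr24]
      unfold ev
      rw [e0, e1, e2]
    set w := (CD.ng (F := K) 1)⁻¹ with hw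
    have hnw : n = m * w := by rw [hm, hw, mul_inv_cancel_right]
    have hwm : w ∈ chevD4.monomialSubgroup K := inv_mem (CD.ng_mem hi1)
    have hinv : CD.inv w = CD.inv n := CD.inv_congr fun r hr => by
      rw [hnw, CD.sg_mul hmm hwm hr, CD.sg_diag hmd (CD.sg_lt hwm hr)]
    have h14i : 14 ∈ CD.inv w := by
      rw [hinv]
      exact ⟨h14, by
        rw [hσ9]
        exact (CD.neg_pos_iff (lt24 (by norm_num))).1
          (by rw [simple_tbl.2.2.2.2.2.1 9 (by norm_num)]; exact h14)⟩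
    have e : CD.xg 14 (t 14) * d * n * CD.xg 14 (s 14) = CD.xg 14 (t 14) * (d * m) * w * CD.xg 14 (s 14) := by
      rw [hnw]; group
    rw [e] at hg ⊢
    obtain ⟨h1, h2, h3⟩ := hparts (t 14) (s 14) (d * m) w (mul_mem hd hmd) hwm (inv_mem hng.1) (Or.inl h14i) hg
    exact mul_mem (mul_mem (mul_mem (xg14_mem_range φ h1) (diag_mem_range hper (mul_mem hd hmd) h3))
      (inv_mem hng.2)) (xg14_mem_range φ h2)

end Cfsg.Agent.Lib.Chev.D4Cyclic
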