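import Cfsg.Agent.Lib.Chev.InvolMono
import Cfsg.Agent.Lib.Chev.Struct
import Cfsg.Agent.Lib.Chev.Coord

/-!
The Bruhat form of an element commuting with a diagonal element.
-/

set_option autoImplicit false

namespace Cfsg.Agent.Lib.Chev.D4Cyclic

open Cfsg.Lie Cfsg.Agent.Lib Cfsg.Agent.Lib.Chev

variable {D : ChevalleyDatum} {T : Fast} {F : Type*} [Field F]

/-- An element commuting with a diagonal element: unipotent parts live on roots of trivial value, and the
permutation preserves the character. -/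
theorem cent_decomp (C : Checked D T) {g h : GL D.Idx F}
    (hg : g ∈ D.group F) (hh : h ∈ D.diagonalSubgroup F) {χ : ℕ → F} (hχ : IsChr D χ)
    (eh : (h : Matrix D.Idx D.Idx F) = dg D χ) (hc : h * g = g * h) :
    ∃ t s : ℕ → F, (∀ r, D.IsPosRoot r → χ r ≠ 1 → t r = 0 ∧ s r = 0) ∧
      ∃ d ∈ D.diagonalSubgroup F, ∃ n ∈ D.monomialSubgroup F,
        (∀ r, r ∉ C.inv n → s r = 0) ∧ (∀ r < D.nroots, χ (C.sg n r) = χ r) ∧
        g = C.wg ((C.rootList {r | D.IsPosRoot r}).map fun r => (r, t r)) * d * n *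
          C.wg ((C.rootList {r | D.IsPosRoot r}).map fun r => (r, s r)) := by
  obtain ⟨b, hb, n, hn, u, hu, rfl⟩ := C.exists_bnu hg
  have hconjx : ∀ r < D.nroots, ∀ t : F, h * C.xg r t * h⁻¹ = C.xg r (χ r * t) := fun r hr t =>
    C.conj_xg_of_dg hχ eh hr t
  set L := C.rootList {r | D.IsPosRoot r} with hL
  have hlt : ∀ r ∈ L, r < D.nroots := fun r hr => (C.mem_rootList.1 hr).1
  have hw : ∀ (t : ℕ → F) (l : List ℕ), (∀ r ∈ l, r < D.nroots) →
      h * C.wg (l.map fun r => (r, t r)) * h⁻¹ = C.wg (l.map fun r => (r, χ r * t r)) := by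
    intro t l
    induction l with
    | nil => intro _; simp [C.wg_nil]
    | cons r l ih =>
      intro hl
      rw [List.map_cons, List.map_cons, C.wg_cons, C.wg_cons, ← hconjx r (hl r (by simp)),
        ← ih fun x hx => hl x (by simp [hx])]
      group
  have hsupp : ∀ t : ℕ → F, h * C.wg (L.map fun r => (r, t r)) * h⁻¹ = C.wg (L.map fun r => (r, t r)) →
      ∀ r, D.IsPosRoot r → χ r ≠ 1 → t r = 0 := by
    intro t e r hr hne
    rw [hw t L hlt] at e
    have := C.ordered_inj _ (C.rootList_sorted _) (fun x hx => (C.mem_rootList.1 hx).2)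
      (fun x => χ x * t x) t e r (C.mem_rootList.2 ⟨hr.1, hr⟩)
    by_contra h0
    exact hne (mul_right_cancel₀ h0 (by rwa [one_mul]))
  set k := h * n * h⁻¹ * n⁻¹ with hk
  have hkd : k ∈ D.diagonalSubgroup F := by
    have := mul_mem hh (C.mono_conj_diag hn _ (inv_mem hh))
    convert this using 1
    rw [hk]; group
  have hu' : h * u * h⁻¹ ∈ grp D F (C.inv n) :=
    C.diag_normalizes (fun r hr => hr.1.1) hh hu
  have hb' : h * b * h⁻¹ * k ∈ D.borelSubgroup F :=
    mul_mem (mul_mem (mul_mem (Subgroup.mem_sup_right hh) hb) (inv_mem (Subgroup.mem_sup_right hh)))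
      (Subgroup.mem_sup_right hkd)
  have e : (h * b * h⁻¹ * k) * n * (h * u * h⁻¹) = b * n * u := by
    calc (h * b * h⁻¹ * k) * n * (h * u * h⁻¹) = h * (b * n * u) * h⁻¹ := by rw [hk]; group
      _ = b * n * u := by rw [hc, mul_inv_cancel_right]
  obtain ⟨hbb, huu⟩ := (C.bnu_unique hb' hb hn hn hu' hu e).2 rfl
  obtain ⟨v, hv, d, hd, rfl⟩ := C.mem_borel.1 hb
  have hdh : h * d * h⁻¹ = d := by rw [C.diag_comm hh hd, mul_inv_cancel_right]
  have hvd : h * v * h⁻¹ * (d * k) = v * d := by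
    calc h * v * h⁻¹ * (d * k) = h * v * h⁻¹ * (h * d * h⁻¹ * k) := by rw [hdh]
      _ = h * (v * d) * h⁻¹ * k := by group
      _ = v * d := hbb
  have hz : v⁻¹ * (h * v * h⁻¹) = d * (d * k)⁻¹ := by
    calc v⁻¹ * (h * v * h⁻¹) = v⁻¹ * (h * v * h⁻¹ * (d * k)) * (d * k)⁻¹ := by group
      _ = d * (d * k)⁻¹ := by rw [hvd]; group
  have hz1 : v⁻¹ * (h * v * h⁻¹) = 1 :=
    C.eq_one_of_uni_mono (mul_mem (inv_mem hv) (C.diag_normalizes_pos hh hv))
      (hz ▸ C.diag_le_monomial (mul_mem hd (inv_mem (mul_mem hd hkd))))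
  have hk1 : k = 1 := by
    rw [hz1] at hz
    have h3 := mul_inv_eq_one.1 hz.symm
    exact (mul_eq_left.1 h3.symm)
  rw [posUnipotent_eq] at hv
  obtain ⟨t, -, et⟩ := C.exists_coord C.closedSet_pos hv
  obtain ⟨s, hs, es⟩ := C.exists_coord (C.closedSet_inv hn) hu
  rw [← hL] at et es
  refine ⟨t, s, fun r hr hne => ⟨hsupp t (by rw [← et]; exact (inv_mul_eq_one.1 hz1).symm) r hr hne,
    hsupp s (by rw [← es]; exact huu) r hr hne⟩, d, hd, n, hn, hs, fun r hr => ?_, ?_⟩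
  · obtain ⟨c, hc0, hcr⟩ := C.sg_conj hn hr
    have hsl := C.sg_lt hn hr
    have hcomm : h * n = n * h := by
      rw [hk, mul_inv_eq_one, mul_inv_eq_iff_eq_mul] at hk1; exact hk1
    have h2 := hcr (χ r * 1)
    rw [← hconjx r hr, show n * (h * C.xg r 1 * h⁻¹) * n⁻¹ = h * (n * C.xg r 1 * n⁻¹) * h⁻¹ by
      calc n * (h * C.xg r 1 * h⁻¹) * n⁻¹ = (n * h) * C.xg r 1 * (n * h)⁻¹ := by group
        _ = (h * n) * C.xg r 1 * (h * n)⁻¹ := by rw [hcomm]
        _ = _ := by group, hcr, hconjx _ hsl] at h2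
    have h3 := C.xg_inj hsl h2
    exact mul_right_cancel₀ hc0 (by simpa [mul_comm] using h3)
  · rw [← et, ← es]

end Cfsg.Agent.Lib.Chev.D4Cyclic
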