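import Cfsg.Agent.Lib.Chev.D4Cyclic.Big
import Cfsg.Agent.Lib.Chev.D4Cyclic.TwoTables

/-!
The centraliser in `³D₄(2)` of a cyclic subgroup of order twenty-one.
-/

set_option autoImplicit false

namespace Cfsg.Agent.Lib.Chev.D4Cyclic

open Cfsg.Lie Cfsg.Agent.Lib Cfsg.Agent.Lib.Chev
open scoped MatrixGroups

variable {K : Type*} [Field K]

/-- the letters with unit parameter -/
def ones (K : Type*) [Field K] (l : List ℕ) : List (ℕ × K) := l.map fun r => (r, (1 : K))

/-- the word element with unit parameters -/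
def w1 (l : List ℕ) : GL chevD4.Idx K := CD.wg (ones K l)

theorem w1_cons (r : ℕ) (l : List ℕ) : (w1 (r :: l) : GL chevD4.Idx K) = CD.xg r 1 * w1 l := rfl

theorem w1_append (l l' : List ℕ) : (w1 (l ++ l') : GL chevD4.Idx K) = w1 l * w1 l' := by
  simp [w1, ones, List.map_append, Checked.wg_append']

theorem cls0_lt {r : ℕ} (hr : r ∈ cls0) : r < 24 := (cls0_spec.2 r hr).1

theorem w1_group {l : List ℕ} (hl : ∀ r ∈ l, r ∈ cls0) : (w1 l : GL chevD4.Idx K) ∈ chevD4.group K :=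
  CD.wg_mem_group _ fun p hp => by
    obtain ⟨r, hr, rfl⟩ := List.mem_map.1 hp
    exact lt24 (cls0_lt (hl r hr))

/-- the monomial element of a node word -/
def nW (w : List ℕ) : GL chevD4.Idx K := (w.map fun i => CD.ng i).prod

theorem nW_mem {w : List ℕ} (hw : ∀ i ∈ w, i < 4) : (nW w : GL chevD4.Idx K) ∈ chevD4.monomialSubgroup K := by
  refine Subgroup.list_prod_mem _ fun x hx => ?_
  obtain ⟨i, hi, rfl⟩ := List.mem_map.1 hx
  exact CD.ng_mem (D4.rank_eq ▸ hw i hi)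

theorem nW_nil : (nW [] : GL chevD4.Idx K) = 1 := rfl

theorem nW_cons (i : ℕ) (w : List ℕ) : (nW (i :: w) : GL chevD4.Idx K) = CD.ng i * nW w := rfl

theorem nW_append (a b : List ℕ) : (nW (a ++ b) : GL chevD4.Idx K) = nW a * nW b := by
  simp [nW]

theorem sg_nW : ∀ w : List ℕ, (∀ i ∈ w, i < 4) → ∀ r < 24, CD.sg (nW w : GL chevD4.Idx K) r = img w r ∧ img w r < 24
  | [], _, r, hr => ⟨by rw [nW_nil, CD.sg_one (lt24 hr)]; rfl, hr⟩
  | i :: w, hw, r, hr => by
    have hi : i < 4 := hw i (by simp)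
    obtain ⟨h1, h2⟩ := sg_nW w (fun j hj => hw j (by simp [hj])) r hr
    have hm := nW_mem (K := K) (w := w) fun j hj => hw j (by simp [hj])
    have hi' : i < chevD4.rank := D4.rank_eq ▸ hi
    obtain ⟨e1, e2⟩ := refl_all i hi (img w r) h2
    refine ⟨?_, e2⟩
    rw [nW_cons, CD.sg_mul (CD.ng_mem hi') hm (lt24 hr), h1, CD.sg_ng hi' (lt24 h2)]
    exact e1

variable [CharP K 2]

theorem ng_sandwich {i : ℕ} (hi : i < 4) {l : List ℕ} (hl : ∀ r ∈ l, r < 24) :
    CD.ng i * (w1 l : GL chevD4.Idx K) * CD.ng i = w1 (l.map (D4.fast.w i)) := by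
  have hi' : i < chevD4.rank := D4.rank_eq ▸ hi
  have hself : (CD.ng i : GL chevD4.Idx K)⁻¹ = CD.ng i := by
    rw [CD.ng_inv, CharTwo.neg_eq]; rfl
  conv_lhs => arg 2; rw [← hself]
  induction l with
  | nil => simp [w1, ones, Checked.wg_nil]
  | cons r l ih =>
    have hr : r < 24 := hl r (by simp)
    have he : CD.ng i * CD.xg r (1 : K) * (CD.ng i)⁻¹ = CD.xg (D4.fast.w i r) 1 := by
      rw [CD.ng_xg hi' (lt24 hr), mul_inv_cancel_right, (refl_all i hi r hr).1, mul_one]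
      congr 1
      rcases Bool.eq_false_or_eq_true (D4.fast.en i r) with h | h <;> simp [eta, h, sgn, CharTwo.neg_eq]
    rw [List.map_cons, w1_cons, w1_cons, ← he, ← ih fun x hx => hl x (by simp [hx])]
    group

theorem nW_one : (nW [1] : GL chevD4.Idx K) = w1 [14, 9, 14] := by
  simp [nW, w1, ones, Checked.ng, simple_tbl.2.1, ChevalleyDatum.nWord, neg14, CharTwo.neg_eq]

theorem nW_w22 : (nW w22 : GL chevD4.Idx K) = w1 [22, 1, 22] := by
  rw [← w22_images]
  have h1 : ∀ r ∈ ([14, 9, 14] : List ℕ), r < 24 := by simp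
  have h2 : ∀ r ∈ ([14, 9, 14] : List ℕ).map (D4.fast.w 3), r < 24 := fun r hr => by
    obtain ⟨s, hs, rfl⟩ := List.mem_map.1 hr
    exact (refl_all 3 (by norm_num) s (h1 s hs)).2
  have h3 : ∀ r ∈ (([14, 9, 14] : List ℕ).map (D4.fast.w 3)).map (D4.fast.w 2), r < 24 := fun r hr => by
    obtain ⟨s, hs, rfl⟩ := List.mem_map.1 hr
    exact (refl_all 2 (by norm_num) s (h2 s hs)).2
  rw [← ng_sandwich (by norm_num) h3, ← ng_sandwich (by norm_num) h2, ← ng_sandwich (by norm_num) h1, ← nW_one]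
  simp [w22, nW, mul_assoc]

theorem nW_wts : ∀ w ∈ wts, (nW w.1 : GL chevD4.Idx K) = w1 w.2 := by
  intro w hw
  simp only [wts, List.mem_cons, List.not_mem_nil, or_false] at hw
  rcases hw with rfl | rfl | rfl | rfl | rfl | rfl
  · rfl
  · exact nW_one
  · exact nW_w22
  · rw [nW_append, w1_append, nW_one, nW_w22]
  · rw [nW_append, w1_append, nW_one, nW_w22]
  · rw [nW_append, nW_append, w1_append, w1_append, nW_one, nW_w22]

theorem act_xg0 (φ : K ≃+* K) {r : ℕ} (hr : r ∈ cls0) (t : K) :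
    (D4.tw φ).act (CD.xg r t) = CD.xg r (φ t) := by
  obtain ⟨h1, h2, -⟩ := cls0_spec.2 r hr
  refine ((D4.tw φ).map_xg r (lt24 h1) t).trans ?_
  show CD.xg (D4.sym.r r) (((sgn (D4.sym.e r) : ℤ) : K) * φ t) = _
  rw [h2]
  rcases Bool.eq_false_or_eq_true (D4.sym.e r) with h | h <;> simp [h, sgn, CharTwo.neg_eq]

theorem act_word (φ : K ≃+* K) (f : ℕ → K) : ∀ l : List ℕ, (∀ r ∈ l, r ∈ cls0) →
    CD.wg (l.map fun r => (r, f r)) ∈ chevD4.group K ∧
      (D4.tw φ).act (CD.wg (l.map fun r => (r, f r))) = CD.wg (l.map fun r => (r, φ (f r)))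
  | [], _ => by simp only [List.map_nil, Checked.wg_nil]; exact ⟨one_mem _, (D4.tw φ).act_one⟩
  | r :: l, h => by
    obtain ⟨h1, h2⟩ := act_word φ f l fun x hx => h x (by simp [hx])
    have hr := h r (by simp)
    have hx := CD.xg_mem_group (F := K) (lt24 (cls0_lt hr)) (f r)
    simp only [List.map_cons, Checked.wg_cons]
    exact ⟨mul_mem hx h1, by rw [(D4.tw φ).act_mul hx h1, h2, act_xg0 φ hr]⟩

theorem w1_fixed (φ : K ≃+* K) {l : List ℕ} (hl : ∀ r ∈ l, r ∈ cls0) :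
    (w1 l : GL chevD4.Idx K) ∈ (D4.tw φ).fixed := by
  refine ⟨w1_group hl, ?_⟩
  have h := (act_word φ (fun _ => (1 : K)) l hl).2
  simp only [map_one] at h
  exact h

/-! ### the action on three root vectors -/

/-- a bit in the field -/
def bitF (K : Type*) [Field K] (N i : ℕ) : K := bif N.testBit i then 1 else 0

/-- the vector of a mask -/
def vecF (K : Type*) [Field K] (N : ℕ) : chevD4.Idx → K :=
  bitF K N 0 • bv chevD4 K 6 + bitF K N 1 • bv chevD4 K 18 + bitF K N 2 • bv chevD4 K 19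

theorem bitF_xor (a b i : ℕ) : bitF K (a ^^^ b) i = bitF K a i + bitF K b i := by
  unfold bitF
  rw [Nat.testBit_xor]
  cases a.testBit i <;> cases b.testBit i <;> simp [CharTwo.add_self_eq_zero]

theorem vecF_xor (a b : ℕ) : vecF K (a ^^^ b) = vecF K a + vecF K b := by
  unfold vecF
  rw [bitF_xor, bitF_xor, bitF_xor, add_smul, add_smul, add_smul]
  abel

theorem vecF_zero : vecF K 0 = 0 := by simp [vecF, bitF]

theorem vecF_single {k : ℕ} (hk : k < 3) : vecF K (2 ^ k) = bv chevD4 K ([6, 18, 19].getD k 0) := by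
  interval_cases k <;> simp [vecF, bitF, Nat.testBit]

theorem x_single {r : ℕ} (hr : r ∈ cls0) {k : ℕ} (hk : k < 3) :
    (chevD4.x K r 1).mulVec (vecF K (2 ^ k)) = vecF K (act1 r (2 ^ k)) := by
  obtain ⟨h1, h2, h3⟩ := chain_cls0 r hr k hk
  have hr' := lt24 (cls0_lt hr)
  have hv24 : ([6, 18, 19] : List ℕ).getD k 0 < 24 := by interval_cases k <;> simp
  rw [vecF_single hk, x_bv_other hr' (lt24 hv24) h1 (by rw [simple_tbl.2.2.2.2.2.1 r (cls0_lt hr)]; exact h2)
    (CD.tables.chain_nodup r hr'), CD.tables.chain r hr' _ (lt24 hv24)]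
  by_cases hb : (trv r).1 = k
  · rw [show Nat.beq (trv r).1 k = true by rw [hb]; exact Nat.beq_refl k, cond_true] at h3
    have htr : (trv r).2 < 3 := (by decide +kernel : ∀ r ∈ cls0, (trv r).2 < 3) r hr
    have e : act1 r (2 ^ k) = 2 ^ k ^^^ 2 ^ (trv r).2 := by
      unfold act1; rw [hb, Nat.testBit_two_pow_self]; rfl
    rw [e, vecF_xor, vecF_single hk, vecF_single htr]
    congr 1
    obtain ⟨p, hp, hpe⟩ := List.map_eq_singleton_iff.1 h3
    rw [hp]
    simp only [Prod.mk.injEq] at hpe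
    rcases Int.natAbs_eq p.2 with h | h <;> rw [hpe.2] at h <;>
      simp [chainVec, hpe.1, h, CharTwo.neg_eq]
  · rw [show Nat.beq (trv r).1 k = false by
      rw [Bool.eq_false_iff]; exact fun h => hb (Nat.eq_of_beq_eq_true h), cond_false, List.map_eq_nil_iff] at h3
    rw [h3]
    have e : act1 r (2 ^ k) = 2 ^ k := by
      unfold act1; rw [Nat.testBit_two_pow_of_ne (Ne.symm hb)]; rfl
    rw [e, vecF_single hk]
    simp [chainVec]

theorem x_mask {r : ℕ} (hr : r ∈ cls0) {N : ℕ} (hN : N < 8) :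
    (chevD4.x K r 1).mulVec (vecF K N) = vecF K (act1 r N) := by
  have hx : ∀ a < 8, ∀ b < 8, (chevD4.x K r 1).mulVec (vecF K a) = vecF K (act1 r a) →
      (chevD4.x K r 1).mulVec (vecF K b) = vecF K (act1 r b) →
      (chevD4.x K r 1).mulVec (vecF K (a ^^^ b)) = vecF K (act1 r (a ^^^ b)) := by
    intro a ha b hb e1 e2
    rw [vecF_xor, Matrix.mulVec_add, e1, e2, (act1_facts r hr a ha).2 b hb, vecF_xor]
  have p1 := x_single (K := K) hr (show 0 < 3 by norm_num)
  have p2 := x_single (K := K) hr (show 1 < 3 by norm_num)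
  have p4 := x_single (K := K) hr (show 2 < 3 by norm_num)
  simp only [pow_zero, pow_one, show (2 : ℕ) ^ 2 = 4 from rfl] at p1 p2 p4
  have p0 : (chevD4.x K r 1).mulVec (vecF K 0) = vecF K (act1 r 0) := by
    have : act1 r 0 = 0 := by simp [act1]
    rw [this, vecF_zero, Matrix.mulVec_zero]
  have p3 := hx 1 (by norm_num) 2 (by norm_num) p1 p2
  have p5 := hx 1 (by norm_num) 4 (by norm_num) p1 p4
  have p6 := hx 2 (by norm_num) 4 (by norm_num) p2 p4
  have p7 := hx 3 (by norm_num) 4 (by norm_num) p3 p4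
  interval_cases N
  exacts [p0, p1, p2, p3, p4, p5, p6, p7]

theorem w1_mask {l : List ℕ} (hl : ∀ r ∈ l, r ∈ cls0) {N : ℕ} (hN : N < 8) :
    ((w1 l : GL chevD4.Idx K) : Matrix chevD4.Idx chevD4.Idx K).mulVec (vecF K N) = vecF K (actW l N) ∧
      actW l N < 8 := by
  induction l with
  | nil => simp [w1, ones, Checked.wg_nil, actW, hN]
  | cons r l ih =>
    obtain ⟨e, h⟩ := ih fun x hx => hl x (by simp [hx])
    have hr := hl r (by simp)
    refine ⟨?_, (act1_facts r hr _ h).1⟩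
    rw [w1_cons, Units.val_mul, ← Matrix.mulVec_mulVec, e, Checked.val_xg, x_mask hr h]
    rfl

theorem vecF_inj {a b : ℕ} (ha : a < 8) (hb : b < 8) (h : vecF K a = vecF K b) : a = b := by
  have key : ∀ (s k : ℕ) (_ : k < 3) (hs : s < chevD4.nroots), [6, 18, 19].getD k 0 = s → ∀ N,
      vecF K N (Sum.inr ⟨s, hs⟩) = bitF K N k := by
    intro s k hk hs e N
    interval_cases k <;> simp at e <;> subst e <;> simp [vecF, bv_apply]
  refine Nat.eq_of_testBit_eq fun i => ?_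
  rcases Nat.lt_or_ge i 3 with hi | hi
  · have hs : ([6, 18, 19] : List ℕ).getD i 0 < chevD4.nroots := lt24 (by interval_cases i <;> simp)
    have := congrFun h (Sum.inr ⟨_, hs⟩)
    rw [key _ i hi hs rfl, key _ i hi hs rfl] at this
    unfold bitF at this
    cases h1 : a.testBit i <;> cases h2 : b.testBit i <;> simp [h1, h2] at this ⊢
  · have h8 : 8 ≤ 2 ^ i := le_trans (by norm_num) (Nat.pow_le_pow_right (by norm_num) hi)
    rw [Nat.testBit_lt_two_pow (by omega), Nat.testBit_lt_two_pow (by omega)]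

theorem sameAct_of_commute {l x : List ℕ} (hl : ∀ r ∈ l, r ∈ cls0) (hx : ∀ r ∈ x, r ∈ cls0)
    (h : (w1 x : GL chevD4.Idx K) * w1 l = w1 l * w1 x) : sameAct (x ++ l) (l ++ x) = true := by
  rw [← w1_append, ← w1_append] at h
  have h1 : ∀ r ∈ x ++ l, r ∈ cls0 := fun r hr => (List.mem_append.1 hr).elim (hx r) (hl r)
  have h2 : ∀ r ∈ l ++ x, r ∈ cls0 := fun r hr => (List.mem_append.1 hr).elim (hl r) (hx r)
  have key : ∀ N < 8, actW (x ++ l) N = actW (l ++ x) N := by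
    intro N hN
    obtain ⟨e1, b1⟩ := w1_mask (K := K) h1 hN
    obtain ⟨e2, b2⟩ := w1_mask (K := K) h2 hN
    rw [h] at e1
    exact vecF_inj b1 b2 (e1.symm.trans e2)
  simp [sameAct, key 1 (by norm_num), key 2 (by norm_num), key 4 (by norm_num)]

/-- An element of order three of `SL₂(2)`. -/
theorem exists_word_three {φ : K ≃+* K} (h01 : ∀ x : K, φ x = x → x = 0 ∨ x = 1) {A : Matrix (Fin 2) (Fin 2) K}
    (hfix : ∀ i j, φ (A i j) = A i j) (hd : A.det = 1) (h3 : A ^ 3 = 1) (h1 : A ≠ 1) :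
    A = !![0, 1; 1, 1] ∨ A = !![1, 1; 1, 0] := by
  have key : ∀ a b c e : K, (a = 0 ∨ a = 1) → (b = 0 ∨ b = 1) → (c = 0 ∨ c = 1) → (e = 0 ∨ e = 1) →
      a * e - b * c = 1 → (!![a, b; c, e] : Matrix (Fin 2) (Fin 2) K) ^ 3 = 1 →
      (!![a, b; c, e] : Matrix (Fin 2) (Fin 2) K) ≠ 1 →
      (!![a, b; c, e] : Matrix (Fin 2) (Fin 2) K) = !![0, 1; 1, 1] ∨
        (!![a, b; c, e] : Matrix (Fin 2) (Fin 2) K) = !![1, 1; 1, 0] := by
    intro a b c e ha hb hc he hd h3 h1
    rcases ha with rfl | rfl <;> rcases hb with rfl | rfl <;> rcases hc with rfl | rfl <;>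
      rcases he with rfl | rfl <;>
      first
        | exact Or.inl rfl
        | exact Or.inr rfl
        | (exfalso; simp [pow_succ, Matrix.one_fin_two, CharTwo.add_self_eq_zero] at hd h3 h1)
  rw [Matrix.det_fin_two] at hd
  rw [Matrix.eta_fin_two A] at h3 h1 ⊢
  exact key _ _ _ _ (h01 _ (hfix 0 0)) (h01 _ (hfix 0 1)) (h01 _ (hfix 1 0)) (h01 _ (hfix 1 1)) hd h3 h1

variable [Fintype K]

/-- The centraliser in `³D₄(2)`. -/
theorem cent_two {φ : K ≃+* K} (hφ : ∀ t, φ t = t ^ 2) (hK : Fintype.card K = 2 ^ 3) {a₀ : Kˣ}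
    (ha₀ : ∀ x, x ∈ Subgroup.zpowers a₀) {A₀ : GL (Fin 2) K} (hA : (a₀, A₀) ∈ MM φ) (hA3 : orderOf A₀ = 3)
    {g : GL chevD4.Idx K} (hg : g ∈ (D4.tw φ).fixed)
    (hc : tor φ (a₀ ^ (2 + 1), Nm φ a₀) * g = g * tor φ (a₀ ^ (2 + 1), Nm φ a₀))
    (hy : Psi φ ⟨(a₀, A₀), hA⟩ * g = g * Psi φ ⟨(a₀, A₀), hA⟩) :
    g ∈ (Psi φ).range := by
  have hper : ∀ t : K, φ^[3] t = t := frob_per hφ hK
  have h01 : ∀ x : K, φ x = x → x = 0 ∨ x = 1 := by
    intro x hx
    rw [hφ] at hx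
    have : x * (x - 1) = 0 := by linear_combination hx
    rcases mul_eq_zero.1 this with h | h
    exacts [Or.inl h, Or.inr (sub_eq_zero.1 h)]
  have hord : orderOf a₀ = 7 := by
    rw [orderOf_eq_card_of_forall_mem_zpowers ha₀, Nat.card_units, Nat.card_eq_fintype_card, hK]; rfl
  have hN : ∀ a : Kˣ, Nm φ a = 1 := fun a => Units.ext ((h01 _ (Nm_fixed hper a)).resolve_left (Nm φ a).ne_zero)
  obtain ⟨χ, hχ, heq⟩ := CD.isChr_chrOf (D4.torVec φ (a₀ ^ (2 + 1)) (Nm φ a₀))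
  have eh : ((tor φ (a₀ ^ (2 + 1), Nm φ a₀) : GL chevD4.Idx K) : Matrix chevD4.Idx chevD4.Idx K) =
      dg chevD4 χ := (CD.val_torus _).trans (dg_congr fun r hr => heq r hr)
  obtain ⟨t, s, hts, d, hd, n, hn, hsn, hperm, rfl⟩ :=
    cent_decomp CD hg.1 (tor_mem_diag φ _) hχ eh hc
  have hχe : ∀ r < 24, χ r = ((a₀ ^ ev 2 r : Kˣ) : K) := fun r hr => by
    have := chr_z (q := 2) hφ hK a₀ hr
    rw [Nat.cast_ofNat] at this
    rw [← this]; exact (heq r (lt24 hr)).symm
  have hmod : ∀ {m m' : ℤ}, a₀ ^ m = a₀ ^ m' → m % 7 = m' % 7 := by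
    intro m m' h
    have h1 := zpow_eq_zpow_iff_modEq.1 h
    rw [hord] at h1
    exact h1
  have hz0 : ∀ r, chevD4.IsPosRoot r → ¬ (r = 14 ∨ r = 22 ∨ r = 23) → t r = 0 ∧ s r = 0 := by
    intro r hr hne
    refine hts r hr fun h1 => hne ?_
    obtain ⟨h12, h24⟩ := pos_root.1 hr
    rw [hχe r h24, Units.val_eq_one, ← zpow_zero a₀] at h1
    exact of_decide_eq_true (allBelow_iff.1 cls0_spec.1 r h24) h12 (hmod h1)
  set L : List ℕ := [14, 22, 23] with hL
  have hwg : ∀ f : ℕ → K, (∀ r, chevD4.IsPosRoot r → ¬ (r = 14 ∨ r = 22 ∨ r = 23) → f r = 0) →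
      CD.wg ((CD.rootList {r | chevD4.IsPosRoot r}).map fun r => (r, f r)) = CD.wg (L.map fun r => (r, f r)) := by
    intro f hf
    rw [CD.wg_filter (fun r => decide (r = 14 ∨ r = 22 ∨ r = 23)) f (CD.rootList {r | chevD4.IsPosRoot r})
      fun r hr h => hf r (CD.mem_rootList.1 hr).2 (of_decide_eq_false h), rootList_pos, List.filter_filter,
      show (List.range 24).filter (fun r => decide (r = 14 ∨ r = 22 ∨ r = 23) && decide (12 ≤ r)) = L by
        decide +kernel]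
  rw [hwg t fun r hr hne => (hz0 r hr hne).1, hwg s fun r hr hne => (hz0 r hr hne).2] at hg hy ⊢
  have hLc : ∀ r ∈ L, r ∈ cls0 := by simp [hL, cls0]
  have hLp : ∀ r ∈ L, chevD4.IsPosRoot r := by simp [hL, pos_root]
  have hLs : L.Pairwise (· < ·) := by simp [hL]
  -- the permutation
  have hpe : ∀ r < chevD4.nroots, e2 (CD.sg n r) = e2 r := fun r hr => by
    have h := hperm r hr
    rw [hχe _ (simple_tbl.2.2.2.2.1 ▸ CD.sg_lt hn hr), hχe r (simple_tbl.2.2.2.2.1 ▸ hr)] at h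
    exact hmod (Units.ext h)
  have hlt : ∀ r < 24, CD.sg n r < 24 := fun r hr => simple_tbl.2.2.2.2.1 ▸ CD.sg_lt hn (lt24 hr)
  have hpr : ∀ r < 24, ∀ r' < 24, D4.fast.pr (CD.sg n r) (CD.sg n r') = D4.fast.pr r r' := fun r hr r' hr' => by
    rw [CD.pr_eq (CD.sg_lt hn (lt24 hr)) (CD.sg_lt hn (lt24 hr')), CD.pr_eq (lt24 hr) (lt24 hr'),
      CD.pair_sg hn (lt24 hr) (lt24 hr')]
  obtain ⟨w, hw, hw18, hw14, hw13, hw12⟩ : ∃ w ∈ wts, img w.1 18 = CD.sg n 18 ∧ img w.1 14 = CD.sg n 14 ∧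
      img w.1 13 = CD.sg n 13 ∧ img w.1 12 = CD.sg n 12 := by
    have ha := hlt 18 (by norm_num)
    have hb := hlt 14 (by norm_num)
    have hc' := hlt 13 (by norm_num)
    have hd' := hlt 12 (by norm_num)
    have h := allBelow_iff.1 perm_two _ ha
    rw [hpe 18 (lt24 (by norm_num)), beqI_self, Bool.not_true, Bool.false_or] at h
    have h := allBelow_iff.1 h _ hb
    rw [hpe 14 (lt24 (by norm_num)), hpr 18 (by norm_num) 14 (by norm_num)] at h
    simp only [beqI_self, Bool.and_self, Bool.not_true, Bool.false_or] at h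
    have h := allBelow_iff.1 h _ hc'
    rw [hpe 13 (lt24 (by norm_num)), hpr 18 (by norm_num) 13 (by norm_num),
      hpr 14 (by norm_num) 13 (by norm_num)] at h
    simp only [beqI_self, Bool.and_self, Bool.not_true, Bool.false_or] at h
    have h := allBelow_iff.1 h _ hd'
    rw [hpe 12 (lt24 (by norm_num)), hpr 18 (by norm_num) 12 (by norm_num),
      hpr 14 (by norm_num) 12 (by norm_num), hpr 13 (by norm_num) 12 (by norm_num)] at h
    simp only [beqI_self, Bool.and_self, Bool.not_true, Bool.false_or, List.any_eq_true, Bool.and_eq_true] at h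
    obtain ⟨w, hw, ⟨⟨h1, h2⟩, h3⟩, h4⟩ := h
    exact ⟨w, hw, Nat.eq_of_beq_eq_true h1, Nat.eq_of_beq_eq_true h2, Nat.eq_of_beq_eq_true h3,
      Nat.eq_of_beq_eq_true h4⟩
  obtain ⟨hw4, hwc⟩ := wts_spec w hw
  set m : GL chevD4.Idx K := nW w.1 with hm
  have hmm : m ∈ chevD4.monomialSubgroup K := nW_mem hw4
  have hd0 : m⁻¹ * n ∈ chevD4.diagonalSubgroup K := by
    refine CD.mem_diag_of_simple_pos (mul_mem (inv_mem hmm) hn) fun i hi => ?_
    have hsl := CD.root.simple_lt i hi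
    have hi4 : i < 4 := D4.rank_eq ▸ hi
    have e : CD.sg m (chevD4.simple i) = CD.sg n (chevD4.simple i) := by
      rw [hm, (sg_nW w.1 hw4 _ (simple_tbl.2.2.2.2.1 ▸ hsl)).1]
      interval_cases i
      · rw [simple_tbl.1]; exact hw18
      · rw [simple_tbl.2.1]; exact hw14
      · rw [simple_tbl.2.2.1]; exact hw13
      · rw [simple_tbl.2.2.2.1]; exact hw12
    rw [CD.sg_mul (inv_mem hmm) hn hsl, ← e, CD.sg_inv_sg hmm hsl]
    exact CD.root.pos_simple hi
  have hinv : CD.inv n = CD.inv m := CD.inv_congr fun r hr => by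
    have h1 := CD.sg_mul hmm (CD.diag_le_monomial hd0) hr
    rw [mul_inv_cancel_left, CD.sg_diag hd0 hr] at h1
    exact h1
  set d1 := d * (m * (m⁻¹ * n) * m⁻¹) with hd1def
  have hd1 : d1 ∈ chevD4.diagonalSubgroup K := mul_mem hd (CD.mono_conj_diag hmm _ hd0)
  set V := CD.wg (L.map fun r => (r, t r))
  set U := CD.wg (L.map fun r => (r, s r))
  have eg : V * d * n * U = V * d1 * m * U := by rw [hd1def]; group
  rw [eg] at hg hy ⊢
  -- fixed parameters
  have hmf : m ∈ (D4.tw φ).fixed := by rw [hm, nW_wts w hw]; exact w1_fixed φ hwc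
  have hVpos : ∀ f : ℕ → K, CD.wg (L.map fun r => (r, f r)) ∈ chevD4.posUnipotent K := fun f => by
    rw [posUnipotent_eq]
    refine CD.wg_mem _ fun p hp => ?_
    obtain ⟨r, hr, rfl⟩ := List.mem_map.1 hp
    exact hLp r hr
  have hUinv : ∀ f : ℕ → K, (∀ r ∈ L, r ∉ CD.inv m → f r = 0) →
      CD.wg (L.map fun r => (r, f r)) ∈ grp chevD4 K (CD.inv m) := fun f hf => by
    refine Subgroup.list_prod_mem _ fun x hx => ?_
    obtain ⟨p, hp, rfl⟩ := List.mem_map.1 hx
    obtain ⟨r, hr, rfl⟩ := List.mem_map.1 hp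
    by_cases h : r ∈ CD.inv m
    · exact CD.xg_mem h _
    · rw [hf r hr h, CD.xg_zero]; exact one_mem _
  obtain ⟨hVg, hVa⟩ := act_word φ t L hLc
  obtain ⟨hUg, hUa⟩ := act_word φ s L hLc
  have hmg := CD.monomial_le_group hmm
  have hdg := CD.diag_le_group hd1
  have hf2 := hg.2
  rw [(D4.tw φ).act_mul (mul_mem (mul_mem hVg hdg) hmg) hUg, (D4.tw φ).act_mul (mul_mem hVg hdg) hmg,
    (D4.tw φ).act_mul hVg hdg, hmf.2, hVa, hUa] at hf2
  have hs0 : ∀ r ∈ L, r ∉ CD.inv m → s r = 0 := fun r _ h => hsn r (hinv ▸ h)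
  obtain ⟨e1, e2⟩ := (CD.bnu_unique
    (mul_mem (Subgroup.mem_sup_left (hVpos _)) (Subgroup.mem_sup_right ((D4.tw φ).act_diag hd1)))
    (mul_mem (Subgroup.mem_sup_left (hVpos t)) (Subgroup.mem_sup_right hd1)) hmm hmm
    (hUinv _ fun r hr h => by rw [hs0 r hr h, map_zero]) (hUinv s hs0) hf2).2 rfl
  have e3 : V⁻¹ * CD.wg (L.map fun r => (r, φ (t r))) = d1 * ((D4.tw φ).act d1)⁻¹ := by
    rw [eq_mul_inv_iff_mul_eq, mul_assoc, e1, inv_mul_cancel_left]
  have e4 : V⁻¹ * CD.wg (L.map fun r => (r, φ (t r))) = 1 := CD.eq_one_of_uni_mono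
    (mul_mem (inv_mem (hVpos t)) (hVpos _))
    (e3 ▸ CD.diag_le_monomial (mul_mem hd1 (inv_mem ((D4.tw φ).act_diag hd1))))
  have hft := CD.ordered_inj L hLs hLp (fun r => φ (t r)) t (inv_mul_eq_one.1 e4).symm
  have hfs := CD.ordered_inj L hLs hLp (fun r => φ (s r)) s e2
  have hfd : (D4.tw φ).act d1 = d1 := by
    rw [e3, mul_inv_eq_one] at e4; exact e4.symm
  -- binary coordinates
  have hbin : ∀ f : ℕ → K, (∀ r ∈ L, φ (f r) = f r) →
      ∃ mk < 8, CD.wg (L.map fun r => (r, f r)) = w1 (sel mk) ∧ ∀ r ∈ sel mk, r ∈ L ∧ f r ≠ 0 := by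
    intro f hf
    rcases h01 _ (hf 14 (by simp [hL])) with a | a <;> rcases h01 _ (hf 22 (by simp [hL])) with b | b <;>
      rcases h01 _ (hf 23 (by simp [hL])) with c | c
    · exact ⟨0, by norm_num, by simp [hL, sel, w1, ones, Checked.wg_cons, a, b, c, Checked.xg_zero], by simp [hL, sel]⟩
    · exact ⟨4, by norm_num, by simp [hL, sel, w1, ones, Checked.wg_cons, a, b, c, Checked.xg_zero, Nat.testBit], by simp [hL, sel, Nat.testBit, a, b, c]⟩
    · exact ⟨2, by norm_num, by simp [hL, sel, w1, ones, Checked.wg_cons, a, b, c, Checked.xg_zero, Nat.testBit], by simp [hL, sel, Nat.testBit, a, b, c]⟩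
    · exact ⟨6, by norm_num, by simp [hL, sel, w1, ones, Checked.wg_cons, a, b, c, Checked.xg_zero, Nat.testBit], by simp [hL, sel, Nat.testBit, a, b, c]⟩
    · exact ⟨1, by norm_num, by simp [hL, sel, w1, ones, Checked.wg_cons, a, b, c, Checked.xg_zero, Nat.testBit], by simp [hL, sel, Nat.testBit, a, b, c]⟩
    · exact ⟨5, by norm_num, by simp [hL, sel, w1, ones, Checked.wg_cons, a, b, c, Checked.xg_zero, Nat.testBit], by simp [hL, sel, Nat.testBit, a, b, c]⟩
    · exact ⟨3, by norm_num, by simp [hL, sel, w1, ones, Checked.wg_cons, a, b, c, Checked.xg_zero, Nat.testBit], by simp [hL, sel, Nat.testBit, a, b, c]⟩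
    · exact ⟨7, by norm_num, by simp [hL, sel, w1, ones, Checked.wg_cons, a, b, c, Checked.xg_zero, Nat.testBit], by simp [hL, sel, Nat.testBit, a, b, c]⟩
  obtain ⟨mv, hmv, hV, hmv'⟩ := hbin t hft
  obtain ⟨mu, hmu, hU, hmu'⟩ := hbin s hfs
  -- the torus part is `tau`
  obtain ⟨c, hc', hce⟩ := (D4.tw φ).exists_fixed_torus (D4.pinv_spec φ) (D4.torMap_per φ hper) D4.ker_exp
    (by norm_num) hd1 ⟨hdg, hfd⟩
  obtain ⟨a, b, hb, rfl⟩ := (D4.fixed_iff φ hper c).1 hc'
  have hbn : b = Nm φ a := by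
    rw [hN]; exact Units.ext ((h01 _ hb).resolve_left b.ne_zero)
  have hd1e : d1 = tau φ a := by rw [← hce, hbn]; rfl
  have hcentG : ∀ (a : Kˣ) (l : List ℕ), (∀ r ∈ l, r ∈ cls0) → Commute (tau φ a) (w1 l : GL chevD4.Idx K) := by
    intro a l hl
    induction l with
    | nil => exact Commute.one_right _
    | cons r l ih =>
      rw [w1_cons]
      refine Commute.mul_right ?_ (ih fun x hx => hl x (by simp [hx]))
      have hr := hl r (by simp)
      obtain ⟨hr24, -, h7⟩ := cls0_spec.2 r hr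
      have hone : CD.chrOf (D4.torVec φ a (Nm φ a)) r = 1 := by
        have hA : ∀ i < 4, chevD4.cartan i r = D4.fast.A i r := fun i hi =>
          CD.tables.cartan i (D4.rank_eq ▸ hi) r (lt24 hr24)
        rw [chr_four, hA 0 (by norm_num), hA 1 (by norm_num), hA 2 (by norm_num), hA 3 (by norm_num), hN,
          Units.val_one, one_zpow, mul_one, hφ, hφ, ← pow_mul, ← zpow_natCast, ← zpow_natCast, ← zpow_mul,
          ← zpow_mul, ← zpow_add₀ a.ne_zero, ← zpow_add₀ a.ne_zero]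
        have hpow : (a : K) ^ (7 : ℤ) = 1 := by
          have h := FiniteField.pow_card_sub_one_eq_one (a : K) a.ne_zero
          rw [hK] at h
          rw [show (7 : ℤ) = ((2 ^ 3 - 1 : ℕ) : ℤ) from rfl, zpow_natCast, h]
        push_cast
        obtain ⟨k, hk⟩ := Int.dvd_of_emod_eq_zero h7
        rw [show D4.fast.A 0 r + 2 * D4.fast.A 2 r + 4 * D4.fast.A 3 r = 7 * k by linarith, zpow_mul,
          hpow, one_zpow]
      show tau φ a * CD.xg r 1 = CD.xg r 1 * tau φ a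
      rw [← mul_inv_eq_iff_eq_mul, tau_def, CD.torus_xg _ (lt24 hr24), hone, one_mul]
  have hcent := hcentG a
  have hsv : ∀ r ∈ sel mv, r ∈ cls0 := fun r hr => (sel_spec mv hmv r hr).1
  have hsu : ∀ r ∈ sel mu, r ∈ cls0 := fun r hr => (sel_spec mu hmu r hr).1
  have hW : ∀ r ∈ sel mv ++ w.2 ++ sel mu, r ∈ cls0 := by
    intro r hr
    simp only [List.mem_append] at hr
    rcases hr with (h | h) | h
    exacts [hsv r h, hwc r h, hsu r h]
  have eg2 : V * d1 * m * U = tau φ a * w1 (sel mv ++ w.2 ++ sel mu) := by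
    rw [hd1e, hm, nW_wts w hw, show V = w1 (sel mv) from hV, show U = w1 (sel mu) from hU, w1_append, w1_append, ← (hcent _ hsv).eq]
    group
  rw [eg2] at hy ⊢
  refine mul_mem (tau_mem_range hper a) ?_
  -- the element of order three
  obtain ⟨hdet, hfix⟩ := hA
  have hA03 : (A₀ : Matrix (Fin 2) (Fin 2) K) ^ 3 = 1 := by
    rw [← Units.val_pow_eq_pow_val, ← hA3, pow_orderOf_eq_one, Units.val_one]
  have hA1 : (A₀ : Matrix (Fin 2) (Fin 2) K) ≠ 1 := fun h => by
    rw [Units.ext (h.trans Units.val_one.symm), orderOf_one] at hA3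
    omega
  have hdet1 : (A₀ : Matrix (Fin 2) (Fin 2) K).det = 1 := by rw [hdet, hN]; rfl
  have hS : ∀ P : SL(2, K), (A₀ : Matrix (Fin 2) (Fin 2) K) = P.1 → Spart φ ⟨(a₀, A₀), hdet, hfix⟩ = P := by
    intro P hP
    apply Subtype.ext
    rw [← hP]
    refine (val_Spart φ _).trans ?_
    simp only [hN, Units.val_one, inv_one, one_mul]
    exact (Matrix.eta_fin_two _).symm
  have hWc : ∀ x : List ℕ, (∀ r ∈ x, r ∈ cls0) →
      Phi (Spart φ ⟨(a₀, A₀), hdet, hfix⟩) = w1 x →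
      sameAct (x ++ (sel mv ++ w.2 ++ sel mu)) ((sel mv ++ w.2 ++ sel mu) ++ x) = true := by
    intro x hx e
    refine sameAct_of_commute (K := K) hW hx ?_
    rw [Psi_apply, e] at hy
    have hwa0 : Commute (tau φ a₀) (w1 (sel mv ++ w.2 ++ sel mu) : GL chevD4.Idx K) :=
      hcentG a₀ (sel mv ++ w.2 ++ sel mu) hW
    have hta : Commute (tau φ a₀) (tau φ a) := CD.diag_comm (tau_mem_diag φ _) (tau_mem_diag φ _)
    have hxa : Commute (tau φ a) (w1 x : GL chevD4.Idx K) := hcent x hx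
    set W : GL chevD4.Idx K := w1 (sel mv ++ w.2 ++ sel mu)
    set X : GL chevD4.Idx K := w1 x
    have h2 : tau φ a * tau φ a₀ * (X * W) = tau φ a * tau φ a₀ * (W * X) := by
      calc tau φ a * tau φ a₀ * (X * W) = tau φ a₀ * X * (tau φ a * W) := by
            rw [← hta.eq, mul_assoc (tau φ a₀), ← mul_assoc (tau φ a), hxa.eq]; group
        _ = tau φ a * W * (tau φ a₀ * X) := hy
        _ = _ := by rw [mul_assoc, ← mul_assoc W, ← hwa0.eq]; group
    exact mul_left_cancel h2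
  have hcheck : (sel mu).all (fun r => Nat.blt (img w.1 r) 12) = true := by
    rw [List.all_eq_true]
    intro r hr
    obtain ⟨hrL, hr0⟩ := hmu' r hr
    have hi : r ∈ CD.inv m := by
      by_contra h
      exact hr0 (hs0 r hrL h)
    obtain ⟨e, hlt24⟩ := sg_nW (K := K) w.1 hw4 r (cls0_lt (hLc r hrL))
    have hng := hi.2
    rw [hm, e] at hng
    rw [Nat.blt_eq]
    by_contra hh
    exact CD.not_pos_and_neg (pos_root.2 ⟨by omega, hlt24⟩) hng
  have hP : (RootPair.upT (1 : K) * RootPair.loT 1).1 = !![0, 1; 1, 1] ∧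
      (RootPair.loT (1 : K) * RootPair.upT 1).1 = !![1, 1; 1, 0] := by
    constructor <;> ext i j <;> fin_cases i <;> fin_cases j <;> simp [RootPair.val_upT, Matrix.mul_apply, Fin.sum_univ_two, RootPair.val_loT, Matrix.SpecialLinearGroup.coe_mul,
      CharTwo.add_self_eq_zero]
  have hall : ((sel mv ++ w.2 ++ sel mu).all fun r => Nat.beq r 14 || Nat.beq r 9) = true := by
    rcases exists_word_three h01 hfix hdet1 hA03 hA1 with hA' | hA'
    · have h := allBelow_iff.1 (allBelow_iff.1 form_check mv hmv) mu hmu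
      rw [List.all_eq_true] at h
      have hh := h w hw
      rw [hcheck, hWc [14, 9] (by simp [cls0]) (by
        rw [hS _ (hA'.trans hP.1.symm), map_mul, Phi_up, Phi_lo]; simp [w1, ones, Checked.wg_cons, Checked.wg_nil])] at hh
      simpa using hh
    · have h := allBelow_iff.1 (allBelow_iff.1 form_check' mv hmv) mu hmu
      rw [List.all_eq_true] at h
      have hh := h w hw
      rw [hcheck, hWc [9, 14] (by simp [cls0]) (by
        rw [hS _ (hA'.trans hP.2.symm), map_mul, Phi_up, Phi_lo]; simp [w1, ones, Checked.wg_cons, Checked.wg_nil])] at hh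
      simpa using hh
  rw [List.all_eq_true] at hall
  show (CD.wg (ones K (sel mv ++ w.2 ++ sel mu))) ∈ (Psi φ).range
  refine Subgroup.list_prod_mem _ fun x hx => ?_
  obtain ⟨p, hp, rfl⟩ := List.mem_map.1 hx
  obtain ⟨r, hr, rfl⟩ := List.mem_map.1 hp
  have h := hall r hr
  rw [Bool.or_eq_true] at h
  rcases h with h | h <;> rw [Nat.eq_of_beq_eq_true h]
  · exact xg14_mem_range φ (map_one φ)
  · exact xg9_mem_range φ (map_one φ)

end Cfsg.Agent.Lib.Chev.D4Cyclic
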