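import Cfsg.Agent.Lib.Chev.D4Cyclic.Singer
import Cfsg.Agent.Lib.Chev.D4Cyclic.Two

/-!
A cyclic self-centralizing subgroup of order `(q³ - 1)(q + 1)` of `³D₄(q)`.
-/

set_option autoImplicit false

namespace Cfsg.Agent.Lib.Chev.D4Cyclic

open Cfsg.Lie Cfsg.Agent.Lib Cfsg.Agent.Lib.Chev
open scoped MatrixGroups

theorem lcm_eq {q : ℕ} (hq : 2 ≤ q) : Nat.lcm (q ^ 3 - 1) (q ^ 2 - 1) = (q ^ 3 - 1) * (q + 1) := by
  have hg : Nat.gcd (q ^ 3 - 1) (q ^ 2 - 1) = q - 1 := by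
    rw [Nat.pow_sub_one_gcd_pow_sub_one, show Nat.gcd 3 2 = 1 from rfl, pow_one]
  have e : q ^ 2 - 1 = (q + 1) * (q - 1) := by
    have := Nat.sq_sub_sq q 1
    simpa using this
  have h := Nat.gcd_mul_lcm (q ^ 3 - 1) (q ^ 2 - 1)
  rw [hg] at h
  refine Nat.eq_of_mul_eq_mul_left (show 0 < q - 1 by omega) (h.trans ?_)
  rw [e]; ring

variable {K : Type*} [Field K] [Fintype K]

theorem exists_cyclic (φ : K ≃+* K) {q : ℕ} (hq : 2 ≤ q) (hφ : ∀ t, φ t = t ^ q) (hK : Fintype.card K = q ^ 3) :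
    ∃ H : Subgroup ↥(twistedD4 K q), IsCyclic ↥H ∧ Nat.card ↥H = (q ^ 3 - 1) * (q + 1) ∧
      Subgroup.centralizer (H : Set ↥(twistedD4 K q)) = H := by
  have hper : ∀ t : K, φ^[3] t = t := frob_per hφ hK
  obtain ⟨a₀, A₀, hA, ha₀, hA₀, hsc, hcomm⟩ := exists_pair φ hq hφ hK
  set p₀ : MM φ := ⟨(a₀, A₀), hA⟩ with hp₀
  have hfix : twistedD4 K q = (D4.tw φ).fixed := D4.eq_fixed φ hφ hK
  have hmem : Psi φ p₀ ∈ twistedD4 K q := hfix ▸ Psi_fixed hper p₀
  set Y : ↥(twistedD4 K q) := ⟨Psi φ p₀, hmem⟩ with hY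
  refine ⟨Subgroup.zpowers Y, inferInstance, ?_, ?_⟩
  · rw [Nat.card_zpowers, ← Subgroup.orderOf_coe, show (Y : GL chevD4.Idx K) = Psi φ p₀ from rfl,
      orderOf_injective (Psi φ) (Psi_injective hper), ← Subgroup.orderOf_coe, hp₀]
    show orderOf ((a₀, A₀) : Kˣ × GL (Fin 2) K) = _
    rw [Prod.orderOf, orderOf_eq_card_of_forall_mem_zpowers ha₀, Nat.card_units, Nat.card_eq_fintype_card, hK,
      hA₀, lcm_eq hq]
  · refine le_antisymm (fun g hg => ?_) ?_
    · have hy : Psi φ p₀ * (g : GL chevD4.Idx K) = (g : GL chevD4.Idx K) * Psi φ p₀ :=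
        congrArg Subtype.val (Subgroup.mem_centralizer_iff.1 hg Y (Subgroup.mem_zpowers Y))
      have hz : Psi φ p₀ ^ (q + 1) = tor φ (a₀ ^ (q + 1), Nm φ a₀) := by
        rw [← map_pow, Psi_apply]
        set n : Kˣ := Nm φ a₀ with hn
        have hn2 : Nm φ (a₀ ^ (q + 1)) = n * n := by
          rw [map_pow, ← hn, pow_succ]
          congr 1
          refine Units.ext ?_
          rw [Units.val_pow_eq_pow_val, ← hφ, hn, Nm_fixed hper]
        have hS : Spart φ (p₀ ^ (q + 1)) = dS n⁻¹ := by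
          apply Subtype.ext
          refine (val_Spart φ _).trans ?_
          have e1 : (p₀ ^ (q + 1) : MM φ).1.1 = a₀ ^ (q + 1) := rfl
          have e2 : ((p₀ ^ (q + 1) : MM φ).1.2 : Matrix (Fin 2) (Fin 2) K) = Matrix.scalar (Fin 2) (n : K) := hsc
          rw [e1, e2, hn2]
          have := n.ne_zero
          ext i j
          fin_cases i <;> fin_cases j <;> simp [dS] <;> field_simp
        rw [hS, Phi_dS, show (p₀ ^ (q + 1) : MM φ).1.1 = a₀ ^ (q + 1) from rfl, tau_def]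
        show _ = CD.torus (D4.torVec φ (a₀ ^ (q + 1)) n)
        rw [show D4.torVec φ (a₀ ^ (q + 1)) n = D4.torVec φ (a₀ ^ (q + 1)) (Nm φ (a₀ ^ (q + 1))) *
            Pi.mulSingle (⟨1, i1lt⟩ : Fin chevD4.rank) n⁻¹ by
          funext ⟨i, hi⟩
          have hi' : i < 4 := D4.rank_eq ▸ hi
          interval_cases i <;> simp [D4.torVec, Pi.mulSingle_apply, Fin.ext_iff, hn2, -map_pow]]
        exact (CD.torusHom.map_mul _ _).symm
      have hzc : tor φ (a₀ ^ (q + 1), Nm φ a₀) * (g : GL chevD4.Idx K) =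
          (g : GL chevD4.Idx K) * tor φ (a₀ ^ (q + 1), Nm φ a₀) := by
        rw [← hz]; exact (Commute.pow_left hy (q + 1)).eq
      have hgf : (g : GL chevD4.Idx K) ∈ (D4.tw φ).fixed := hfix ▸ g.2
      obtain ⟨p, hp⟩ : (g : GL chevD4.Idx K) ∈ (Psi φ).range := by
        rcases Nat.lt_or_ge q 3 with h | h
        · obtain rfl : q = 2 := by omega
          have hchar : CharP K 2 := by
            obtain ⟨r, hr⟩ := CharP.exists K
            obtain ⟨k, hr', hk⟩ := FiniteField.card K r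
            have : r = 2 := by
              have h1 : r ∣ 2 ^ 3 := by rw [← hK, hk]; exact dvd_pow_self r k.2.ne'
              exact (Nat.prime_dvd_prime_iff_eq hr' Nat.prime_two).1 (hr'.dvd_of_dvd_pow h1)
            exact this ▸ hr
          exact cent_two hφ hK ha₀ hA (hA₀.trans rfl) hgf hzc hy
        · exact cent_big h hφ hK ha₀ hgf hzc
      have hpc : p₀ * p = p * p₀ := Psi_injective hper (by rw [map_mul, map_mul, hp]; exact hy)
      have hA2 : p.1.2 * A₀ = A₀ * p.1.2 := (congrArg (fun x : MM φ => x.1.2) hpc).symm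
      obtain ⟨k, hk⟩ := hcomm p.1.2 p.2.2 hA2
      obtain ⟨l, hl⟩ := ha₀ p.1.1
      have hk' : A₀ ^ k = p.1.2 := hk
      have hl' : a₀ ^ l = p.1.1 := hl
      have hdet : Nm φ a₀ ^ l = Nm φ a₀ ^ k := by
        rw [← map_zpow, hl']
        have h1 : ((Matrix.GeneralLinearGroup.det p.1.2 : Kˣ) : K) = Nm φ p.1.1 := p.2.1
        have h2 : Matrix.GeneralLinearGroup.det A₀ = Nm φ a₀ := Units.ext hA.1
        rw [← Units.ext h1, ← hk', map_zpow, h2]
      have hNo : ((q - 1 : ℕ) : ℤ) ∣ l - k := by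
        have h1 := (zpow_eq_zpow_iff_modEq.1 hdet).symm.dvd
        have h2 : orderOf (Nm φ a₀) = q - 1 := by
          have hN : Nm φ a₀ = a₀ ^ (1 + q + q ^ 2) := Units.ext (by
            rw [val_Nm, hφ, hφ, Units.val_pow_eq_pow_val, ← pow_mul, ← pow_succ', ← pow_add]
            ring_nf)
          rw [hN, orderOf_pow, orderOf_eq_card_of_forall_mem_zpowers ha₀, Nat.card_units,
            Nat.card_eq_fintype_card, hK]
          have hcube : q ^ 3 - 1 = (1 + q + q ^ 2) * (q - 1) := by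
            obtain ⟨m, rfl⟩ : ∃ m, q = m + 1 := ⟨q - 1, by omega⟩
            rw [Nat.add_sub_cancel, show (m + 1) ^ 3 = (1 + (m + 1) + (m + 1) ^ 2) * m + 1 by ring, Nat.add_sub_cancel]
          rw [hcube, Nat.gcd_mul_right_left, Nat.mul_div_cancel_left _ (by positivity)]
        rw [h2] at h1
        exact h1
      -- glue the two exponents
      have hg' : Nat.gcd (q ^ 3 - 1) (q ^ 2 - 1) = q - 1 := by
        rw [Nat.pow_sub_one_gcd_pow_sub_one, show Nat.gcd 3 2 = 1 from rfl, pow_one]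
      obtain ⟨c, hc⟩ := hNo
      have hb := Nat.gcd_eq_gcd_ab (q ^ 3 - 1) (q ^ 2 - 1)
      rw [hg'] at hb
      set u := Nat.gcdA (q ^ 3 - 1) (q ^ 2 - 1)
      set v := Nat.gcdB (q ^ 3 - 1) (q ^ 2 - 1)
      have e1 : a₀ ^ (k + ((q ^ 2 - 1 : ℕ) : ℤ) * v * c) = p.1.1 := by
        rw [← hl', zpow_eq_zpow_iff_modEq, orderOf_eq_card_of_forall_mem_zpowers ha₀, Nat.card_units,
          Nat.card_eq_fintype_card, hK, Int.modEq_iff_dvd]
        exact ⟨u * c, by linear_combination hc + c * hb⟩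
      have e2 : A₀ ^ (k + ((q ^ 2 - 1 : ℕ) : ℤ) * v * c) = p.1.2 := by
        rw [← hk', zpow_eq_zpow_iff_modEq, hA₀, Int.modEq_iff_dvd]
        exact ⟨-(v * c), by ring⟩
      refine ⟨k + ((q ^ 2 - 1 : ℕ) : ℤ) * v * c, Subtype.ext ?_⟩
      show ((Y ^ (k + ((q ^ 2 - 1 : ℕ) : ℤ) * v * c) : ↥(twistedD4 K q)) : GL chevD4.Idx K) = g
      rw [Subgroup.coe_zpow, show (Y : GL chevD4.Idx K) = Psi φ p₀ from rfl, ← map_zpow, ← hp]
      exact congrArg (Psi φ) (Subtype.ext (Prod.ext e1 e2))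
    · intro x hx
      rw [Subgroup.mem_centralizer_iff]
      intro y hy
      obtain ⟨i, rfl⟩ := hx
      obtain ⟨j, rfl⟩ := hy
      exact (Commute.zpow_zpow_self Y j i).eq

end Cfsg.Agent.Lib.Chev.D4Cyclic
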