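import Cfsg.Agent.Lib.Chev.D4Cyclic.Levi
import Mathlib.FieldTheory.Finite.Extension
import Mathlib.RingTheory.Norm.Defs
import Mathlib.Data.ZMod.Units

/-!
A generator of a non-split torus of `GL₂(q)` matched with a generator of `GF(q³)*`.
-/

set_option autoImplicit false

namespace Cfsg.Agent.Lib.Chev.D4Cyclic

open Cfsg.Lie Cfsg.Agent.Lib Cfsg.Agent.Lib.Chev

/-- A singer element over a finite field, with its centraliser. -/
theorem exists_singer_field (k : Type*) [Field k] [Finite k] :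
    ∃ B : GL (Fin 2) k, orderOf B = Nat.card k ^ 2 - 1 ∧
      orderOf (Matrix.det (B : Matrix (Fin 2) (Fin 2) k)) = Nat.card k - 1 ∧
      ((B ^ (Nat.card k + 1) : GL (Fin 2) k) : Matrix (Fin 2) (Fin 2) k) =
        Matrix.scalar (Fin 2) (Matrix.det (B : Matrix (Fin 2) (Fin 2) k)) ∧
      ∀ A : GL (Fin 2) k, A * B = B * A → A ∈ Subgroup.zpowers B := by
  classical
  have := Fintype.ofFinite k
  obtain ⟨p, hp⟩ := CharP.exists k
  have : Fact p.Prime := ⟨CharP.char_is_prime k p⟩
  let E := FiniteField.Extension k p 2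
  have : Fintype E := Fintype.ofFinite E
  have hE : Nat.card E = Nat.card k ^ 2 := FiniteField.natCard_extension k p 2
  let b : Module.Basis (Fin 2) k E := Module.finBasisOfFinrankEq k E (FiniteField.finrank_extension k p 2)
  let L := Algebra.leftMulMatrix b
  have hL : Function.Injective L := Algebra.leftMulMatrix_injective b
  obtain ⟨γ, hγ⟩ := (inferInstance : IsCyclic Eˣ).exists_generator
  let LU : Eˣ →* GL (Fin 2) k := Units.map (L : E →* Matrix (Fin 2) (Fin 2) k)
  have hLU : Function.Injective LU := fun x y h => Units.ext (hL (congrArg Units.val h))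
  have hoγ : orderOf γ = Nat.card k ^ 2 - 1 := by
    rw [orderOf_eq_card_of_forall_mem_zpowers hγ, Nat.card_units, hE]
  have hk1 : 1 < Nat.card k := Finite.one_lt_card
  have hdiv : (Nat.card E - 1) / (Nat.card k - 1) = Nat.card k + 1 := by
    rw [hE]
    obtain ⟨m, hm⟩ : ∃ m, Nat.card k = m + 2 := ⟨Nat.card k - 2, by omega⟩
    rw [hm, show (m + 2) ^ 2 - 1 = (m + 2 + 1) * (m + 2 - 1) by
      rw [show m + 2 - 1 = m + 1 by omega]
      have : (m + 2) ^ 2 = (m + 2 + 1) * (m + 1) + 1 := by ring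
      omega, Nat.mul_div_cancel _ (by omega)]
  have hnorm : ∀ x : E, algebraMap k E (Algebra.norm k x) = x ^ (Nat.card k + 1) := fun x => by
    rw [FiniteField.algebraMap_norm_eq_pow, hdiv]
  have hdet : ∀ x : E, (L x).det = Algebra.norm k x := fun x => (Algebra.norm_eq_matrix_det b x).symm
  refine ⟨LU γ, by rw [orderOf_injective LU hLU, hoγ], ?_, ?_, ?_⟩
  · show orderOf (L γ).det = _
    rw [hdet, ← orderOf_injective (algebraMap k E : k →* E) (algebraMap k E).injective]
    show orderOf (algebraMap k E (Algebra.norm k (γ : E))) = _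
    rw [hnorm, ← Units.val_pow_eq_pow_val, orderOf_units, orderOf_pow, hoγ]
    have e : Nat.card k ^ 2 - 1 = (Nat.card k + 1) * (Nat.card k - 1) := by
      have := Nat.sq_sub_sq (Nat.card k) 1
      simpa using this
    rw [e, Nat.gcd_mul_right_left, Nat.mul_div_cancel_left _ (by omega)]
  · rw [← map_pow]
    show L ((γ ^ (Nat.card k + 1) : Eˣ) : E) = Matrix.scalar (Fin 2) (L γ).det
    rw [Units.val_pow_eq_pow_val, ← hnorm, hdet, AlgHom.commutes]
    rfl
  · intro A hA
    let f : E →ₗ[k] E := Matrix.toLin b b (A : Matrix (Fin 2) (Fin 2) k)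
    have hf : ∀ x : E, f ((γ : E) * x) = (γ : E) * f x := by
      intro x
      have h1 : Matrix.toLin b b ((A : Matrix (Fin 2) (Fin 2) k) * L γ) =
          Matrix.toLin b b (L γ * (A : Matrix (Fin 2) (Fin 2) k)) := by
        have := congrArg Units.val hA
        exact congrArg _ this
      rw [Matrix.toLin_mul b b b, Matrix.toLin_mul b b b] at h1
      have hmul : Matrix.toLin b b (L γ) = Algebra.lmul k E (γ : E) := by
        show Matrix.toLin b b (LinearMap.toMatrix b b (Algebra.lmul k E (γ : E))) = _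
        exact Matrix.toLin_toMatrix b b _
      rw [hmul] at h1
      exact LinearMap.congr_fun h1 x
    have hfn : ∀ (n : ℕ) (x : E), f ((γ : E) ^ n * x) = (γ : E) ^ n * f x := by
      intro n
      induction n with
      | zero => simp
      | succ n ih => intro x; rw [pow_succ', mul_assoc, hf, ih, mul_assoc]
    have hfe : ∀ y : E, f y = f 1 * y := by
      intro y
      rcases eq_or_ne y 0 with rfl | hy
      · simp
      obtain ⟨n, hn⟩ := (Submonoid.mem_powers_iff _ _).1
        (mem_powers_iff_mem_zpowers.2 (hγ (Units.mk0 y hy)))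
      have hn' : (γ : E) ^ n = y := by simpa using congrArg Units.val hn
      have := hfn n 1
      rw [mul_one, hn'] at this
      rw [this, mul_comm]
    have hAL : (A : Matrix (Fin 2) (Fin 2) k) = L (f 1) := by
      have : f = Algebra.lmul k E (f 1) := LinearMap.ext hfe
      show _ = LinearMap.toMatrix b b (Algebra.lmul k E (f 1))
      rw [← this]
      exact (LinearMap.toMatrix_toLin b b _).symm
    have hne : f 1 ≠ 0 := by
      intro h
      have := (Matrix.isUnit_iff_isUnit_det _).1 A.isUnit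
      rw [hAL, h, map_zero, Matrix.det_zero] at this
      exact not_isUnit_zero this
    obtain ⟨n, hn⟩ := hγ (Units.mk0 (f 1) hne)
    refine ⟨n, ?_⟩
    show LU γ ^ n = A
    rw [← map_zpow, show γ ^ n = _ from hn]
    exact Units.ext hAL.symm

/-- In a finite cyclic group the order determines the subgroup. -/
theorem zpowers_eq_of_orderOf_eq {G : Type*} [CommGroup G] [Finite G] [IsCyclic G] {x y : G}
    (h : orderOf x = orderOf y) : Subgroup.zpowers x = Subgroup.zpowers y := by
  have hker : Nat.card (powMonoidHom (α := G) (orderOf x)).ker = orderOf x := by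
    rw [IsCyclic.card_powMonoidHom_ker, Nat.gcd_eq_right (orderOf_dvd_natCard x)]
  have key : ∀ z : G, orderOf z = orderOf x → Subgroup.zpowers z = (powMonoidHom (α := G) (orderOf x)).ker := by
    intro z hz
    refine Subgroup.eq_of_le_of_card_ge ?_ (by rw [hker, Nat.card_zpowers, hz])
    rw [Subgroup.zpowers_le, MonoidHom.mem_ker, powMonoidHom_apply, ← hz, pow_orderOf_eq_one]
  rw [key x rfl, key y h.symm]

variable {K : Type*} [Field K] [Fintype K]

/-- The pair of generators. -/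
theorem exists_pair (φ : K ≃+* K) {q : ℕ} (hq : 2 ≤ q) (hφ : ∀ t, φ t = t ^ q) (hK : Fintype.card K = q ^ 3) :
    ∃ (a₀ : Kˣ) (A₀ : GL (Fin 2) K),
      (a₀, A₀) ∈ MM φ ∧ (∀ x, x ∈ Subgroup.zpowers a₀) ∧ orderOf A₀ = q ^ 2 - 1 ∧
      ((A₀ ^ (q + 1) : GL (Fin 2) K) : Matrix (Fin 2) (Fin 2) K) = Matrix.scalar (Fin 2) (Nm φ a₀ : K) ∧
      ∀ A : GL (Fin 2) K,
        (∀ i j, φ ((A : Matrix (Fin 2) (Fin 2) K) i j) = (A : Matrix (Fin 2) (Fin 2) K) i j) →
          A * A₀ = A₀ * A → A ∈ Subgroup.zpowers A₀ := by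
  classical
  let k := RingHom.eqLocusField φ.toRingHom (RingHom.id K)
  have hmem : ∀ x : K, x ∈ k ↔ φ x = x := fun x => Iff.rfl
  have hk : Nat.card k = q := by
    rw [← card_frob_fixed (by omega : 1 ≤ q) hK]
    exact Nat.card_congr (Equiv.subtypeEquivRight fun x => by rw [hmem, hφ])
  obtain ⟨B, hB1, hB2, hB3, hB4⟩ := exists_singer_field k
  rw [hk] at hB1 hB2 hB3
  let ι : GL (Fin 2) k →* GL (Fin 2) K := Matrix.GeneralLinearGroup.map k.subtype
  have hι : Function.Injective ι := fun X Y h => Units.ext (Matrix.ext fun i j =>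
    Subtype.val_injective (congrArg (fun M : GL (Fin 2) K => (M : Matrix (Fin 2) (Fin 2) K) i j) h))
  have hfix : ∀ (X : GL (Fin 2) k) i j, φ ((ι X : Matrix (Fin 2) (Fin 2) K) i j) = (ι X : Matrix (Fin 2) (Fin 2) K) i j :=
    fun X i j => (X.1 i j).2
  have hdet : ∀ X : GL (Fin 2) k, (ι X : Matrix (Fin 2) (Fin 2) K).det = k.subtype (X : Matrix (Fin 2) (Fin 2) k).det :=
    fun X => (RingHom.map_det k.subtype (X : Matrix (Fin 2) (Fin 2) k)).symm
  set ν : K := (ι B : Matrix (Fin 2) (Fin 2) K).det with hν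
  have hνo : orderOf ν = q - 1 := by
    rw [hν, hdet, ← hB2]
    exact orderOf_injective (k.subtype : k →* K) Subtype.val_injective _
  have hν0 : ν ≠ 0 := by
    intro h
    have h1 := congrArg orderOf h
    rw [hνo, orderOf_zero] at h1
    omega
  -- a generator of `Kˣ` whose norm is `ν`
  obtain ⟨g, hg⟩ := (inferInstance : IsCyclic Kˣ).exists_generator
  have hgo : orderOf g = q ^ 3 - 1 := by
    rw [orderOf_eq_card_of_forall_mem_zpowers hg, Nat.card_units, Nat.card_eq_fintype_card, hK]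
  have hNg : Nm φ g = g ^ (1 + q + q ^ 2) := Units.ext (by
    rw [val_Nm, hφ, hφ, Units.val_pow_eq_pow_val, ← pow_mul, ← pow_succ', ← pow_add]
    ring_nf)
  have hcube : q ^ 3 - 1 = (1 + q + q ^ 2) * (q - 1) := by
    obtain ⟨m, rfl⟩ : ∃ m, q = m + 1 := ⟨q - 1, by omega⟩
    rw [Nat.add_sub_cancel, show (m + 1) ^ 3 = (1 + (m + 1) + (m + 1) ^ 2) * m + 1 by ring, Nat.add_sub_cancel]
  have hNo : orderOf (Nm φ g) = q - 1 := by
    rw [hNg, orderOf_pow, hgo, hcube, Nat.gcd_mul_right_left, Nat.mul_div_cancel_left _ (by positivity)]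
  obtain ⟨u, hu, hue⟩ : ∃ u : ℕ, Nm φ g ^ u = Units.mk0 ν hν0 ∧ u.Coprime (q - 1) := by
    have hsub : Units.mk0 ν hν0 ∈ Subgroup.zpowers (Nm φ g) := by
      have h1 : Subgroup.zpowers (Units.mk0 ν hν0) = Subgroup.zpowers (Nm φ g) := by
        refine zpowers_eq_of_orderOf_eq ?_
        rw [hNo, ← orderOf_units]
        exact hνo
      rw [← h1]; exact Subgroup.mem_zpowers _
    obtain ⟨u, hu⟩ := (Submonoid.mem_powers_iff _ _).1 (mem_powers_iff_mem_zpowers.2 hsub)
    refine ⟨u, hu, ?_⟩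
    have h2 := congrArg orderOf hu
    rw [orderOf_pow, hNo, ← orderOf_units, Units.val_mk0, hνo] at h2
    rw [Nat.Coprime, Nat.gcd_comm]
    rcases (Nat.div_eq_self.1 h2) with h | h
    · omega
    · exact h
  have : NeZero (q ^ 3 - 1) := ⟨by have := Nat.pow_le_pow_left hq 3; omega⟩
  obtain ⟨w, hw⟩ := ZMod.unitsMap_surjective (Dvd.intro_left _ hcube.symm : q - 1 ∣ q ^ 3 - 1)
    (ZMod.unitOfCoprime u hue)
  have hwc : (w : ZMod (q ^ 3 - 1)).val.Coprime (q ^ 3 - 1) := ZMod.val_coe_unit_coprime w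
  have hmod : (w : ZMod (q ^ 3 - 1)).val ≡ u [MOD q - 1] := by
    rw [← ZMod.natCast_eq_natCast_iff]
    have h3 := congrArg Units.val hw
    rw [ZMod.unitsMap_val, ZMod.coe_unitOfCoprime] at h3
    rw [← h3, ZMod.cast_eq_val]
  refine ⟨g ^ (w : ZMod (q ^ 3 - 1)).val, ι B, ⟨?_, hfix B⟩, ?_, ?_, ?_, ?_⟩
  · rw [map_pow, ← hν]
    have : Nm φ g ^ (w : ZMod (q ^ 3 - 1)).val = Units.mk0 ν hν0 := by
      rw [← hu]; exact pow_eq_pow_iff_modEq.2 (hNo ▸ hmod)
    rw [this, Units.val_mk0]
  · intro x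
    have h1 : Subgroup.zpowers (g ^ (w : ZMod (q ^ 3 - 1)).val) = Subgroup.zpowers g := by
      refine zpowers_eq_of_orderOf_eq ?_
      rw [orderOf_pow, hgo, Nat.gcd_comm, hwc, Nat.div_one]
    rw [h1]; exact hg x
  · rw [orderOf_injective ι hι, hB1]
  · have : Nm φ g ^ (w : ZMod (q ^ 3 - 1)).val = Units.mk0 ν hν0 := by
      rw [← hu]; exact pow_eq_pow_iff_modEq.2 (hNo ▸ hmod)
    rw [map_pow, this, Units.val_mk0, ← map_pow, hν, hdet]
    show (Matrix.map ((B ^ (q + 1) : GL (Fin 2) k) : Matrix (Fin 2) (Fin 2) k) k.subtype) = _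
    rw [hB3, Matrix.scalar_apply, Matrix.scalar_apply, Matrix.diagonal_map (map_zero _)]
  · intro A hA hc
    let A' : GL (Fin 2) k := Matrix.GeneralLinearGroup.mkOfDetNeZero
      (Matrix.of fun i j => (⟨(A : Matrix (Fin 2) (Fin 2) K) i j, hA i j⟩ : k)) (by
        intro h
        have h1 := congrArg k.subtype h
        rw [RingHom.map_det, map_zero] at h1
        exact ((Matrix.isUnit_iff_isUnit_det _).1 A.isUnit).ne_zero h1)
    have e : ι A' = A := Units.ext (Matrix.ext fun i j => rfl)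
    rw [← e] at hc ⊢
    rw [← map_mul, ← map_mul] at hc
    obtain ⟨n, hn⟩ := hB4 A' (hι hc)
    exact ⟨n, by show ι B ^ n = ι A'; rw [← map_zpow]; exact congrArg ι hn⟩

end Cfsg.Agent.Lib.Chev.D4Cyclic
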